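import Mathlib
import Cfsg.Agent.Lib.Helper2.ExtraCent

/-!
# Elementary facts on cyclic `p`-subgroups, with explicit generators
-/

namespace Cfsg.Agent.Lib.Helper54

open Subgroup

theorem symp_exists_nat_pow {G : Type*} [Group G] [Finite G] {a b : G} (h : b ∈ zpowers a) :
    ∃ n : ℕ, a ^ n = b := by
  rw [← mem_powers_iff_mem_zpowers] at h
  obtain ⟨n, hn⟩ := h
  exact ⟨n, hn⟩

theorem symp_orderOf_pow_pred {G : Type*} [Group G] {p m : ℕ} (hp : p.Prime) (hm : 1 ≤ m) {a : G}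
    (ha : orderOf a = p ^ m) : orderOf (a ^ (p ^ (m - 1))) = p := by
  rw [orderOf_pow_of_dvd (pow_ne_zero _ hp.ne_zero) (by rw [ha]; exact pow_dvd_pow p (by omega)),
    ha]
  have : p ^ m = p ^ (m - 1) * p := by rw [← pow_succ]; congr 1; omega
  rw [this, Nat.mul_div_cancel_left _ (pow_pos hp.pos _)]

theorem symp_orderOf_pow_p {G : Type*} [Group G] {p m : ℕ} (hp : p.Prime) (hm : 1 ≤ m) {a : G}
    (ha : orderOf a = p ^ m) : orderOf (a ^ p) = p ^ (m - 1) := by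
  rw [orderOf_pow_of_dvd hp.ne_zero (by rw [ha]; exact dvd_pow_self p (by omega)), ha]
  have : p ^ m = p * p ^ (m - 1) := by rw [← pow_succ']; congr 1; omega
  rw [this, Nat.mul_div_cancel_left _ hp.pos]

/-- An element of order dividing `p` in `⟨a⟩`, `a` of order `p ^ m`, lies in `⟨a ^ (p ^ (m-1))⟩`. -/
theorem symp_mem_zpowers_pow {G : Type*} [Group G] {p m : ℕ} (hp : p.Prime) (hm : 1 ≤ m)
    {a b : G} (ha : orderOf a = p ^ m) (hb : b ∈ zpowers a) (hbp : b ^ p = 1) :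
    b ∈ zpowers (a ^ (p ^ (m - 1))) := by
  obtain ⟨i, rfl⟩ := mem_zpowers_iff.mp hb
  have h1 : a ^ (i * (p : ℤ)) = 1 := by rw [zpow_mul, zpow_natCast]; exact hbp
  rw [← orderOf_dvd_iff_zpow_eq_one, ha] at h1
  have h2 : ((p ^ m : ℕ) : ℤ) = (p : ℤ) ^ (m - 1) * (p : ℤ) := by
    rw [← pow_succ]; push_cast; congr 1; omega
  rw [h2] at h1
  have h3 : ((p : ℤ) ^ (m - 1)) ∣ i :=
    Int.dvd_of_mul_dvd_mul_right (by exact_mod_cast hp.ne_zero) h1
  obtain ⟨i', rfl⟩ := h3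
  rw [mem_zpowers_iff]
  refine ⟨i', ?_⟩
  rw [← zpow_natCast, ← zpow_mul]
  push_cast
  rfl

/-- An element of `⟨a⟩` killed by `p ^ (m-1)` is a `p`-th power in `⟨a⟩`. -/
theorem symp_exists_pow_eq {G : Type*} [Group G] {p m : ℕ} (hp : p.Prime) (hm : 1 ≤ m)
    {a b : G} (ha : orderOf a = p ^ m) (hb : b ∈ zpowers a) (hbp : b ^ (p ^ (m - 1)) = 1) :
    ∃ a' ∈ zpowers a, b = a' ^ p := by
  obtain ⟨i, rfl⟩ := mem_zpowers_iff.mp hb
  have h1 : a ^ (i * ((p ^ (m - 1) : ℕ) : ℤ)) = 1 := by rw [zpow_mul, zpow_natCast]; exact hbp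
  rw [← orderOf_dvd_iff_zpow_eq_one, ha] at h1
  have h2 : ((p ^ m : ℕ) : ℤ) = (p : ℤ) * ((p ^ (m - 1) : ℕ) : ℤ) := by
    rw [← Nat.cast_mul, ← pow_succ']; congr 2; omega
  rw [h2] at h1
  have h3 : (p : ℤ) ∣ i :=
    Int.dvd_of_mul_dvd_mul_right (by exact_mod_cast pow_ne_zero _ hp.ne_zero) h1
  obtain ⟨i', rfl⟩ := h3
  refine ⟨a ^ i', zpow_mem_zpowers a i', ?_⟩
  rw [← zpow_natCast, ← zpow_mul, mul_comm]

/-- A generator (in the ambient group) of a cyclic subgroup. -/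
theorem symp_exists_gen {G : Type*} [Group G] (A : Subgroup G) (hA : IsCyclic A) :
    ∃ b ∈ A, ∀ x ∈ A, x ∈ zpowers b := by
  obtain ⟨⟨b, hbA⟩, hb⟩ := hA.exists_generator
  refine ⟨b, hbA, fun x hx => ?_⟩
  obtain ⟨i, hi⟩ := mem_zpowers_iff.mp (hb ⟨x, hx⟩)
  rw [mem_zpowers_iff]
  exact ⟨i, by simpa using congrArg Subtype.val hi⟩

/-- In a cyclic subgroup of a `p`-group, the elements of order dividing `p` are the powers of any
element of order `p`. -/
theorem symp_cyclic_unique {G : Type*} [Group G] [Finite G] {p : ℕ} [Fact p.Prime]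
    (hG : IsPGroup p G) (A : Subgroup G) (hA : IsCyclic A) {z c : G} (hz : z ∈ A)
    (hzo : orderOf z = p) (hc : c ∈ A) (hcp : c ^ p = 1) : c ∈ zpowers z := by
  have hp : p.Prime := Fact.out
  obtain ⟨b, hbA, hb⟩ := symp_exists_gen A hA
  obtain ⟨n, hn⟩ := IsPGroup.iff_orderOf.mp hG b
  have hz1 : z ≠ 1 := by
    intro h
    rw [h, orderOf_one] at hzo
    exact hp.one_lt.ne hzo
  have hn1 : 1 ≤ n := by
    by_contra h
    have h0 : n = 0 := by omega
    rw [h0, pow_zero, orderOf_eq_one_iff] at hn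
    have := hb z hz
    rw [hn, zpowers_one_eq_bot, mem_bot] at this
    exact hz1 this
  have hzp : z ^ p = 1 := by rw [← hzo]; exact pow_orderOf_eq_one z
  have hu := symp_orderOf_pow_pred hp hn1 hn
  have h1 := symp_mem_zpowers_pow hp hn1 hn (hb c hc) hcp
  have h2 := symp_mem_zpowers_pow hp hn1 hn (hb z hz) hzp
  have hcard : Nat.card (zpowers (b ^ (p ^ (n - 1)))) = p := by rw [Nat.card_zpowers, hu]
  obtain ⟨k, hk⟩ := Helper2.exists_pow_eq_of_card_prime _ hcard h2 hz1 h1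
  rw [← hk]
  exact pow_mem (mem_zpowers z) k

end Cfsg.Agent.Lib.Helper54
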