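import Mathlib
import Cfsg.Agent.Lib.Helper2.ExtraCent

/-!
# A duality lemma for "symplectic" subgroups

Let `D` be a subgroup of a finite group all of whose commutators are powers of an element `z` of
prime order `p` commuting with `D`.  Every map `f` which is multiplicative on `D`, takes values in
`⟨z⟩` and is trivial on the centre of `D` has the form `t ↦ ⁅c, t⁆` for some `c ∈ D`.
-/

namespace Cfsg.Agent.Lib.Helper54

open Subgroup
open scoped commutatorElement

section calculus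

variable {G : Type*} [Group G]

theorem symp_comm_mul_left (D : Subgroup G)
    (hcc : ∀ a ∈ D, ∀ b ∈ D, ∀ t ∈ D, Commute ⁅a, b⁆ t)
    {a b c : G} (ha : a ∈ D) (hb : b ∈ D) (hc : c ∈ D) : ⁅a * b, c⁆ = ⁅a, c⁆ * ⁅b, c⁆ := by
  have h1 : ⁅a * b, c⁆ = a * ⁅b, c⁆ * a⁻¹ * ⁅a, c⁆ := by
    simp only [commutatorElement_def]; group
  rw [h1, ((hcc b hb c hc a ha).symm).mul_inv_cancel]
  exact (hcc b hb c hc _ (Helper2.commutatorElement_mem_of_mem D ha hc)).eq

theorem symp_comm_mul_right (D : Subgroup G)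
    (hcc : ∀ a ∈ D, ∀ b ∈ D, ∀ t ∈ D, Commute ⁅a, b⁆ t)
    {a b c : G} (ha : a ∈ D) (hb : b ∈ D) (hc : c ∈ D) : ⁅a, b * c⁆ = ⁅a, b⁆ * ⁅a, c⁆ := by
  have h1 : ⁅a, b * c⁆ = ⁅a, b⁆ * (b * ⁅a, c⁆ * b⁻¹) := by
    simp only [commutatorElement_def]; group
  rw [h1, ((hcc a ha c hc b hb).symm).mul_inv_cancel]

theorem symp_comm_pow_left (D : Subgroup G)
    (hcc : ∀ a ∈ D, ∀ b ∈ D, ∀ t ∈ D, Commute ⁅a, b⁆ t)
    {a b : G} (ha : a ∈ D) (hb : b ∈ D) (n : ℕ) : ⁅a ^ n, b⁆ = ⁅a, b⁆ ^ n := by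
  induction n with
  | zero => simp
  | succ n ih => rw [pow_succ, symp_comm_mul_left D hcc (pow_mem ha n) ha hb, ih, pow_succ]

theorem symp_comm_pow_right (D : Subgroup G)
    (hcc : ∀ a ∈ D, ∀ b ∈ D, ∀ t ∈ D, Commute ⁅a, b⁆ t)
    {a b : G} (ha : a ∈ D) (hb : b ∈ D) (n : ℕ) : ⁅a, b ^ n⁆ = ⁅a, b⁆ ^ n := by
  induction n with
  | zero => simp
  | succ n ih => rw [pow_succ, symp_comm_mul_right D hcc ha (pow_mem hb n) hb, ih, pow_succ]

end calculus

theorem symp_dual_aux {G : Type*} [Group G] [Finite G] {p : ℕ} [Fact p.Prime] (z : G)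
    (hz : orderOf z = p) :
    ∀ n : ℕ, ∀ D : Subgroup G, Nat.card D ≤ n →
      (∀ t ∈ D, Commute z t) →
      (∀ a ∈ D, ∀ b ∈ D, ⁅a, b⁆ ∈ zpowers z) →
      ∀ f : G → G, (∀ a ∈ D, ∀ b ∈ D, f (a * b) = f a * f b) →
        (∀ a ∈ D, f a ∈ zpowers z) →
        (∀ a ∈ D, (∀ t ∈ D, Commute a t) → f a = 1) →
        ∃ c ∈ D, ∀ t ∈ D, f t = ⁅c, t⁆ := by
  intro n
  induction n with
  | zero =>
    intro D hcard
    have := Nat.card_pos (α := D)
    omega
  | succ n ih =>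
    intro D hcard hzc hcomm f hmul hval hcent
    have hcc : ∀ a ∈ D, ∀ b ∈ D, ∀ t ∈ D, Commute ⁅a, b⁆ t := by
      intro a ha b hb t ht
      obtain ⟨k, hk⟩ := mem_zpowers_iff.mp (hcomm a ha b hb)
      rw [← hk]
      exact (hzc t ht).zpow_left k
    by_cases hab : ∀ a ∈ D, ∀ b ∈ D, Commute a b
    · refine ⟨1, D.one_mem, fun t ht => ?_⟩
      rw [hcent t ht (fun s hs => hab t ht s hs), commutatorElement_one_left]
    · push Not at hab
      obtain ⟨x, hx, y, hy, hxy⟩ := hab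
      obtain ⟨w, hw⟩ : ∃ w, w = ⁅x, y⁆ := ⟨_, rfl⟩
      have hw1 : w ≠ 1 := fun h => hxy (commutatorElement_eq_one_iff_commute.mp (hw ▸ h))
      have hcardz : Nat.card (zpowers z) = p := by rw [Nat.card_zpowers, hz]
      have hwz : w ∈ zpowers z := hw ▸ hcomm x hx y hy
      have hgen : ∀ u ∈ zpowers z, ∃ i : ℕ, w ^ i = u := fun u hu =>
        Helper2.exists_pow_eq_of_card_prime (zpowers z) hcardz hwz hw1 hu
      have hyx : ⁅y, x⁆ = w⁻¹ := by rw [hw, commutatorElement_inv]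
      have hxx : ⁅x, x⁆ = 1 := commutatorElement_self x
      have hyy : ⁅y, y⁆ = 1 := commutatorElement_self y
      obtain ⟨D₁, hD₁def⟩ : ∃ D₁ : Subgroup G, D₁ = D ⊓ centralizer ({x, y} : Set G) := ⟨_, rfl⟩
      have hD₁ : ∀ d, d ∈ D₁ ↔ d ∈ D ∧ Commute x d ∧ Commute y d := by
        intro d
        rw [hD₁def, mem_inf, mem_centralizer_iff]
        constructor
        · rintro ⟨h1, h2⟩
          exact ⟨h1, h2 x (by simp), h2 y (by simp)⟩
        · rintro ⟨h1, h2, h3⟩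
          refine ⟨h1, ?_⟩
          intro h hh
          rcases hh with rfl | rfl
          · exact h2
          · exact h3
      have hD₁D : D₁ ≤ D := fun d hd => ((hD₁ d).mp hd).1
      -- decomposition
      have hdec : ∀ t ∈ D, ∃ i j : ℕ, ∃ d ∈ D₁, t = x ^ i * y ^ j * d := by
        intro t ht
        obtain ⟨i, hi⟩ := hgen ⁅t, y⁆ (hcomm t ht y hy)
        obtain ⟨j, hj⟩ := hgen ⁅x, t⁆ (hcomm x hx t ht)
        obtain ⟨d, hdD, htd⟩ : ∃ d ∈ D, t = x ^ i * y ^ j * d :=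
          ⟨(x ^ i * y ^ j)⁻¹ * t, mul_mem (inv_mem (mul_mem (pow_mem hx i) (pow_mem hy j))) ht,
            by group⟩
        have e1 : ⁅x, t⁆ = w ^ j * ⁅x, d⁆ := by
          conv_lhs => rw [htd]
          rw [symp_comm_mul_right D hcc hx (mul_mem (pow_mem hx i) (pow_mem hy j)) hdD,
            symp_comm_mul_right D hcc hx (pow_mem hx i) (pow_mem hy j),
            symp_comm_pow_right D hcc hx hx, symp_comm_pow_right D hcc hx hy, hxx, one_pow,
            one_mul, ← hw]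
        have e2 : ⁅y, t⁆ = (w ^ i)⁻¹ * ⁅y, d⁆ := by
          conv_lhs => rw [htd]
          rw [symp_comm_mul_right D hcc hy (mul_mem (pow_mem hx i) (pow_mem hy j)) hdD,
            symp_comm_mul_right D hcc hy (pow_mem hx i) (pow_mem hy j),
            symp_comm_pow_right D hcc hy hx, symp_comm_pow_right D hcc hy hy, hyy, one_pow,
            mul_one, hyx, inv_pow]
        have e3 : ⁅x, d⁆ = 1 := by
          rw [← hj] at e1
          exact mul_eq_left.mp e1.symm
        have e4 : ⁅y, d⁆ = 1 := by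
          have : ⁅y, t⁆ = (w ^ i)⁻¹ := by rw [hi, commutatorElement_inv]
          rw [this] at e2
          exact mul_eq_left.mp e2.symm
        exact ⟨i, j, d, (hD₁ d).mpr ⟨hdD, commutatorElement_eq_one_iff_commute.mp e3,
          commutatorElement_eq_one_iff_commute.mp e4⟩, htd⟩
      have hcard₁ : Nat.card D₁ ≤ n := by
        by_contra hlt
        have : D₁ = D := Subgroup.eq_of_le_of_card_ge hD₁D (by omega)
        have hxD₁ : x ∈ D₁ := this ▸ hx
        exact hxy ((hD₁ x).mp hxD₁).2.2.symm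
      obtain ⟨c₁, hc₁D, hc₁⟩ := ih D₁ hcard₁ (fun t ht => hzc t (hD₁D ht))
        (fun a ha b hb => hcomm a (hD₁D ha) b (hD₁D hb)) f
        (fun a ha b hb => hmul a (hD₁D ha) b (hD₁D hb)) (fun a ha => hval a (hD₁D ha)) (by
          intro a ha hac
          apply hcent a (hD₁D ha)
          intro t ht
          obtain ⟨i, j, d, hd, rfl⟩ := hdec t ht
          have hax : Commute a x := ((hD₁ a).mp ha).2.1.symm
          have hay : Commute a y := ((hD₁ a).mp ha).2.2.symm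
          exact ((hax.pow_right i).mul_right (hay.pow_right j)).mul_right (hac d hd))
      obtain ⟨ea, hea⟩ := hgen (f y) (hval y hy)
      obtain ⟨eb, heb⟩ := hgen (f x)⁻¹ (inv_mem (hval x hx))
      have hc₁D' : c₁ ∈ D := hD₁D hc₁D
      have hc₁x : ⁅c₁, x⁆ = 1 :=
        commutatorElement_eq_one_iff_commute.mpr ((hD₁ c₁).mp hc₁D).2.1.symm
      have hc₁y : ⁅c₁, y⁆ = 1 :=
        commutatorElement_eq_one_iff_commute.mpr ((hD₁ c₁).mp hc₁D).2.2.symm
      have hxa : x ^ ea ∈ D := pow_mem hx ea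
      have hyb : y ^ eb ∈ D := pow_mem hy eb
      have hcD : c₁ * x ^ ea * y ^ eb ∈ D := mul_mem (mul_mem hc₁D' hxa) hyb
      have hcx : ⁅c₁ * x ^ ea * y ^ eb, x⁆ = f x := by
        rw [symp_comm_mul_left D hcc (mul_mem hc₁D' hxa) hyb hx,
          symp_comm_mul_left D hcc hc₁D' hxa hx, symp_comm_pow_left D hcc hx hx,
          symp_comm_pow_left D hcc hy hx, hc₁x, hxx, one_pow, one_mul, one_mul, hyx, inv_pow,
          heb, inv_inv]
      have hcy : ⁅c₁ * x ^ ea * y ^ eb, y⁆ = f y := by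
        rw [symp_comm_mul_left D hcc (mul_mem hc₁D' hxa) hyb hy,
          symp_comm_mul_left D hcc hc₁D' hxa hy, symp_comm_pow_left D hcc hx hy,
          symp_comm_pow_left D hcc hy hy, hc₁y, hyy, one_pow, one_mul, mul_one, ← hw, hea]
      have hcd : ∀ d ∈ D₁, ⁅c₁ * x ^ ea * y ^ eb, d⁆ = f d := by
        intro d hd
        have hdD : d ∈ D := hD₁D hd
        have h1 : ⁅x, d⁆ = 1 := commutatorElement_eq_one_iff_commute.mpr ((hD₁ d).mp hd).2.1
        have h2 : ⁅y, d⁆ = 1 := commutatorElement_eq_one_iff_commute.mpr ((hD₁ d).mp hd).2.2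
        rw [symp_comm_mul_left D hcc (mul_mem hc₁D' hxa) hyb hdD,
          symp_comm_mul_left D hcc hc₁D' hxa hdD, symp_comm_pow_left D hcc hx hdD,
          symp_comm_pow_left D hcc hy hdD, h1, h2, one_pow, one_pow, mul_one, mul_one,
          hc₁ d hd]
      have hf1 : f 1 = 1 := by
        have := hmul 1 D.one_mem 1 D.one_mem
        rw [mul_one] at this
        exact (mul_eq_left.mp this.symm)
      have hfpow : ∀ a ∈ D, ∀ k : ℕ, f (a ^ k) = f a ^ k := by
        intro a ha k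
        induction k with
        | zero => simp [hf1]
        | succ k ihk => rw [pow_succ, hmul _ (pow_mem ha k) a ha, ihk, pow_succ]
      refine ⟨c₁ * x ^ ea * y ^ eb, hcD, ?_⟩
      intro t ht
      obtain ⟨i, j, d, hd, rfl⟩ := hdec t ht
      have hdD : d ∈ D := hD₁D hd
      rw [hmul _ (mul_mem (pow_mem hx i) (pow_mem hy j)) d hdD,
        hmul _ (pow_mem hx i) _ (pow_mem hy j), hfpow x hx, hfpow y hy,
        symp_comm_mul_right D hcc hcD (mul_mem (pow_mem hx i) (pow_mem hy j)) hdD,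
        symp_comm_mul_right D hcc hcD (pow_mem hx i) (pow_mem hy j),
        symp_comm_pow_right D hcc hcD hx, symp_comm_pow_right D hcc hcD hy, hcx, hcy, hcd d hd]

/-- Duality: a `⟨z⟩`-valued multiplicative map on `D`, trivial on the centre of `D`, is a
commutator map. -/
theorem symp_dual {G : Type*} [Group G] [Finite G] {p : ℕ} [Fact p.Prime] (z : G)
    (hz : orderOf z = p) (D : Subgroup G) (hzc : ∀ t ∈ D, Commute z t)
    (hcomm : ∀ a ∈ D, ∀ b ∈ D, ⁅a, b⁆ ∈ zpowers z)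
    (f : G → G) (hmul : ∀ a ∈ D, ∀ b ∈ D, f (a * b) = f a * f b)
    (hval : ∀ a ∈ D, f a ∈ zpowers z)
    (hcent : ∀ a ∈ D, (∀ t ∈ D, Commute a t) → f a = 1) :
    ∃ c ∈ D, ∀ t ∈ D, f t = ⁅c, t⁆ :=
  symp_dual_aux z hz (Nat.card D) D le_rfl hzc hcomm f hmul hval hcent

end Cfsg.Agent.Lib.Helper54
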