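import Mathlib
import Cfsg.Agent.Lib.Helper2.Class2
import Cfsg.Agent.Lib.Helper54.SympD
import Cfsg.Agent.Lib.Helper54.SympCyc

/-!
# The exponent of a characteristic "symplectic" subgroup with cyclic centre

Let `G` be a finite `p`-group all of whose characteristic abelian subgroups are cyclic, and let
`T` be a characteristic subgroup whose centre is `⟨a⟩` of order `p ^ m` and whose commutators
are central of order dividing `p`.  If `p` is odd or `m ≥ 2`, then `T` has exponent dividing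
`p ^ m`.
-/

namespace Cfsg.Agent.Lib.Helper54

open Subgroup
open scoped commutatorElement

theorem symp_mul_pow {G : Type*} [Group G] (D : Subgroup G)
    (hcc : ∀ a ∈ D, ∀ b ∈ D, ∀ t ∈ D, Commute ⁅a, b⁆ t) {a b : G} (ha : a ∈ D) (hb : b ∈ D)
    (n : ℕ) : (a * b) ^ n = a ^ n * b ^ n * ⁅b, a⁆ ^ (n.choose 2) := by
  have hc : ⁅(⟨b, hb⟩ : D), ⟨a, ha⟩⁆ ∈ center D := by
    rw [Subgroup.mem_center_iff]
    intro g
    apply Subtype.ext
    have := (hcc b hb a ha g g.2).eq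
    simpa [commutatorElement_def] using this.symm
  have h := Helper2.mul_pow_of_commutator_central (⟨a, ha⟩ : D) ⟨b, hb⟩ hc n
  have h2 := congrArg Subtype.val h
  simpa [commutatorElement_def] using h2

theorem symp_exponent {G : Type*} [Group G] [Finite G] {p : ℕ} [Fact p.Prime] (hG : IsPGroup p G)
    (hsymp : ∀ A : Subgroup G, A.Characteristic → IsMulCommutative A → IsCyclic A)
    (T : Subgroup G) (hT : T.Characteristic) (a : G) (m : ℕ) (hm : 1 ≤ m)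
    (ha : orderOf a = p ^ m)
    (hZT : ∀ u, u ∈ zpowers a ↔ u ∈ T ∧ ∀ t ∈ T, Commute u t)
    (hpm : p ≠ 2 ∨ 2 ≤ m)
    (hcomm : ∀ x ∈ T, ∀ y ∈ T, (∀ t ∈ T, Commute ⁅x, y⁆ t) ∧ ⁅x, y⁆ ^ p = 1) :
    ∀ x ∈ T, x ^ (p ^ m) = 1 := by
  have hp : p.Prime := Fact.out
  obtain ⟨z, hzdef⟩ : ∃ z, z = a ^ (p ^ (m - 1)) := ⟨_, rfl⟩
  have hz : orderOf z = p := hzdef ▸ symp_orderOf_pow_pred hp hm ha
  have hzZ : z ∈ zpowers a := hzdef ▸ pow_mem (mem_zpowers a) _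
  have hzT := (hZT z).mp hzZ
  have hzc : ∀ t ∈ T, Commute z t := hzT.2
  have hcc : ∀ x ∈ T, ∀ y ∈ T, ∀ t ∈ T, Commute ⁅x, y⁆ t := fun x hx y hy => (hcomm x hx y hy).1
  have hcomm' : ∀ x ∈ T, ∀ y ∈ T, ⁅x, y⁆ ∈ zpowers z := by
    intro x hx y hy
    rw [hzdef]
    exact symp_mem_zpowers_pow hp hm ha
      ((hZT _).mpr ⟨Helper2.commutatorElement_mem_of_mem T hx hy, (hcomm x hx y hy).1⟩)
      (hcomm x hx y hy).2
  have hpc : ∀ x ∈ T, x ^ p ∈ zpowers a := by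
    intro x hx
    rw [hZT]
    refine ⟨pow_mem hx p, fun t ht => ?_⟩
    rw [← commutatorElement_eq_one_iff_commute, symp_comm_pow_left T hcc hx ht]
    exact (hcomm x hx t ht).2
  have hN : p ^ m = p * p ^ (m - 1) := by rw [← pow_succ']; congr 1; omega
  have hdvd : p ∣ (p ^ m).choose 2 := by
    apply hp.dvd_choose_pow (by norm_num)
    rcases hpm with h | h
    · intro h2
      have : p ∣ 2 := by rw [h2]; exact dvd_pow_self p (by omega)
      exact h ((Nat.prime_dvd_prime_iff_eq hp Nat.prime_two).mp this)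
    · intro h2
      have : 2 ^ 2 ≤ p ^ m :=
        le_trans (Nat.pow_le_pow_left hp.two_le 2) (Nat.pow_le_pow_right hp.pos h)
      omega
  have hmul : ∀ x ∈ T, ∀ y ∈ T, (x * y) ^ (p ^ m) = x ^ (p ^ m) * y ^ (p ^ m) := by
    intro x hx y hy
    rw [symp_mul_pow T hcc hx hy]
    obtain ⟨q, hq⟩ := hdvd
    rw [hq, pow_mul, (hcomm y hy x hx).2, one_pow, mul_one]
  have hval : ∀ t ∈ T, t ^ (p ^ m) ∈ zpowers z := by
    intro t ht
    obtain ⟨i, hi⟩ := mem_zpowers_iff.mp (hpc t ht)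
    rw [hN, pow_mul, ← hi, hzdef, mem_zpowers_iff]
    refine ⟨i, ?_⟩
    rw [← zpow_natCast, ← zpow_natCast, ← zpow_mul, ← zpow_mul, mul_comm]
  have hcent : ∀ t ∈ T, (∀ s ∈ T, Commute t s) → t ^ (p ^ m) = 1 := by
    intro t ht hts
    obtain ⟨i, hi⟩ := mem_zpowers_iff.mp ((hZT t).mpr ⟨ht, hts⟩)
    rw [← hi, ← zpow_natCast, ← zpow_mul, mul_comm, zpow_mul, zpow_natCast, ← ha,
      pow_orderOf_eq_one, one_zpow]
  obtain ⟨c, hcT, hc0⟩ := symp_dual z hz T hzc hcomm' (fun t => t ^ (p ^ m)) hmul hval hcent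
  have hc : ∀ t ∈ T, t ^ (p ^ m) = ⁅c, t⁆ := hc0
  by_contra hcon
  push Not at hcon
  obtain ⟨x, hxT, hx1⟩ := hcon
  -- the characteristic subgroup `J`
  let J : Subgroup G :=
    { carrier := {t | t ∈ T ∧ t ^ (p ^ m) = 1}
      mul_mem' := by
        rintro s t ⟨hs, hs1⟩ ⟨ht, ht1⟩
        exact ⟨mul_mem hs ht, by rw [hmul s hs t ht, hs1, ht1, one_mul]⟩
      one_mem' := ⟨T.one_mem, one_pow _⟩
      inv_mem' := by
        rintro t ⟨ht, ht1⟩
        exact ⟨inv_mem ht, by rw [inv_pow, ht1, inv_one]⟩ }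
  have hJ : ∀ t, t ∈ J ↔ t ∈ T ∧ t ^ (p ^ m) = 1 := fun t => Iff.rfl
  have hJchar : J.Characteristic := by
    rw [characteristic_iff_le_comap]
    intro φ t ht
    rw [mem_comap, hJ]
    have hT' := characteristic_iff_le_comap.mp hT φ
    refine ⟨hT' ((hJ t).mp ht).1, ?_⟩
    show (φ t) ^ (p ^ m) = 1
    rw [← map_pow, ((hJ t).mp ht).2, map_one]
  haveI := hJchar
  obtain ⟨A, hAdef⟩ : ∃ A : Subgroup G, A = J ⊓ centralizer (J : Set G) := ⟨_, rfl⟩
  have hAchar : A.Characteristic := by rw [hAdef]; infer_instance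
  have hAmem : ∀ u, u ∈ A ↔ u ∈ J ∧ ∀ t ∈ J, Commute u t := by
    intro u
    rw [hAdef, mem_inf, mem_centralizer_iff]
    constructor
    · rintro ⟨h1, h2⟩
      exact ⟨h1, fun t ht => (h2 t ht).symm⟩
    · rintro ⟨h1, h2⟩
      exact ⟨h1, fun t ht => (h2 t ht).eq.symm⟩
  have hAcomm : IsMulCommutative A :=
    ⟨⟨fun u v => Subtype.ext (((hAmem u).mp u.2).2 v ((hAmem v).mp v.2).1).eq⟩⟩
  have hAcyc := hsymp A hAchar hAcomm
  have hcJ : c ∈ J := (hJ c).mpr ⟨hcT, by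
    have := hc c hcT
    rw [commutatorElement_self] at this
    exact this⟩
  have hcA : c ∈ A := by
    rw [hAmem]
    refine ⟨hcJ, fun t ht => ?_⟩
    have h1 := hc t ((hJ t).mp ht).1
    rw [((hJ t).mp ht).2] at h1
    exact commutatorElement_eq_one_iff_commute.mp h1.symm
  have hzJ : z ∈ J := (hJ z).mpr ⟨hzT.1, hcent z hzT.1 hzT.2⟩
  have hzA : z ∈ A := (hAmem z).mpr ⟨hzJ, fun t ht => hzc t ((hJ t).mp ht).1⟩
  have hcp : (c ^ p) ^ (p ^ (m - 1)) = 1 := by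
    rw [← pow_mul, ← hN]
    exact ((hJ c).mp hcJ).2
  obtain ⟨a', ha', hca'⟩ := symp_exists_pow_eq hp hm ha (hpc c hcT) hcp
  have ha'T := (hZT a').mp ha'
  have ha'J : a' ∈ J := (hJ a').mpr ⟨ha'T.1, hcent a' ha'T.1 ha'T.2⟩
  have ha'A : a' ∈ A := (hAmem a').mpr ⟨ha'J, fun t ht => ha'T.2 t ((hJ t).mp ht).1⟩
  have hcomm_ca : Commute c a'⁻¹ := ((ha'T.2 c hcT).symm).inv_right
  have hc'p : (c * a'⁻¹) ^ p = 1 := by
    rw [hcomm_ca.mul_pow, hca', inv_pow, mul_inv_cancel]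
  have hc'A : c * a'⁻¹ ∈ A := mul_mem hcA (inv_mem ha'A)
  have hmem := symp_cyclic_unique hG A hAcyc hzA hz hc'A hc'p
  have hc'Z : c * a'⁻¹ ∈ zpowers a := (zpowers_le.mpr hzZ) hmem
  have hcZ : c ∈ zpowers a := by
    have : c = (c * a'⁻¹) * a' := by group
    rw [this]
    exact mul_mem hc'Z ha'
  have hcx := ((hZT c).mp hcZ).2 x hxT
  apply hx1
  rw [hc x hxT]
  exact commutatorElement_eq_one_iff_commute.mpr hcx

end Cfsg.Agent.Lib.Helper54
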