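import Mathlib
import Cfsg.Prelude.Def_Transfer
import Cfsg.Agent.Lib.Helper2.ExtraCent
import Cfsg.Agent.Lib.Helper2.ESLExtra
import Cfsg.Agent.Lib.Helper2.ESLSub
import Cfsg.Agent.Lib.Helper53.PGroups
import Cfsg.Agent.Lib.Helper54.SympN

/-!
# Symplectic-type `p`-groups: the critical subgroup is `E ∗ Z`

Context `SympCtx p C ζ k z`: `C` is a characteristic subgroup with `C_G(C) = ⟨ζ⟩ ≤ C`, `ζ` of order
`p ^ k` (`k ≥ 1`), `z = ζ ^ (p ^ (k-1))` central in `G`, `p`-th powers of `C` and all commutators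
`⁅C, G⁆` lie in `⟨ζ⟩`.
-/

namespace Cfsg.Agent.Lib.Helper54

open Subgroup
open scoped commutatorElement

theorem symp_mem_sup_zpowers {G : Type*} [Group G] {E : Subgroup G} {y : G}
    (hy : y ∈ normalizer (E : Set G)) {u : G} (hu : u ∈ E ⊔ zpowers y) :
    ∃ j : ℤ, u * y ^ j ∈ E := by
  have hn : ∀ (j : ℤ) (e : G), e ∈ E → y ^ j * e * (y ^ j)⁻¹ ∈ E := by
    intro j e he
    have := (normalizer (E : Set G)).zpow_mem hy j
    exact (mem_normalizer_iff.mp this e).mp he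
  rw [← closure_eq E, ← closure_eq (zpowers y), ← Subgroup.closure_union] at hu
  induction hu using closure_induction with
  | mem x hx =>
    rcases hx with hx | hx
    · exact ⟨0, by simpa using hx⟩
    · obtain ⟨i, rfl⟩ := mem_zpowers_iff.mp hx
      exact ⟨-i, by simp⟩
  | one => exact ⟨0, by simp⟩
  | mul a b _ _ iha ihb =>
    obtain ⟨i, hi⟩ := iha
    obtain ⟨j, hj⟩ := ihb
    refine ⟨j + i, ?_⟩
    have h1 := hn (-i) _ hj
    have : a * b * y ^ (j + i) = (a * y ^ i) * (y ^ (-i) * (b * y ^ j) * (y ^ (-i))⁻¹) := by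
      rw [zpow_add, zpow_neg]; group
    rw [this]
    exact mul_mem hi h1
  | inv a _ iha =>
    obtain ⟨i, hi⟩ := iha
    refine ⟨-i, ?_⟩
    have h1 := hn i _ (inv_mem hi)
    have : a⁻¹ * y ^ (-i) = y ^ i * (a * y ^ i)⁻¹ * (y ^ i)⁻¹ := by rw [zpow_neg]; group
    rw [this]
    exact h1

theorem symp_comm_pow_of_commute {G : Type*} [Group G] (a g : G) (h : Commute ⁅a, g⁆ a) (n : ℕ) :
    ⁅a ^ n, g⁆ = ⁅a, g⁆ ^ n := by
  induction n with
  | zero => simp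
  | succ n ih =>
    have h1 : ⁅a ^ (n + 1), g⁆ = a * ⁅a ^ n, g⁆ * a⁻¹ * ⁅a, g⁆ := by
      rw [pow_succ']; simp only [commutatorElement_def]; group
    rw [h1, ih, ((h.pow_left n).symm).mul_inv_cancel, pow_succ]

theorem symp_isExtraspecial_sub {G : Type*} [Group G] [Finite G] {p : ℕ} [Fact p.Prime]
    (E : Subgroup G) (hZ : Nat.card ↥(E ⊓ centralizer (E : Set G)) = p)
    (hcomm : ∀ a ∈ E, ∀ b ∈ E, ⁅a, b⁆ ∈ centralizer (E : Set G))
    (hnab : ¬ E ≤ centralizer (E : Set G)) : Cfsg.IsExtraspecial p ↥E := by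
  apply Helper2.ESL.isExtraspecial_of
  · rw [← hZ, ← Helper2.ESL.center_map_subtype,
      Subgroup.card_map_of_injective E.subtype_injective]
  · intro a b
    rw [Helper2.ESL.mem_center_sub_iff]
    exact ⟨Helper2.commutatorElement_mem_of_mem E a.2 b.2, hcomm a a.2 b b.2⟩
  · by_contra hcon
    push Not at hcon
    apply hnab
    intro x hx
    rw [mem_centralizer_iff]
    intro y hy
    have h1 := hcon ⟨y, hy⟩ ⟨x, hx⟩
    have h2 := commutatorElement_eq_one_iff_commute.mp h1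
    exact congrArg Subtype.val h2.eq

structure SympCtx {G : Type*} [Group G] (p : ℕ) (C : Subgroup G) (ζ : G) (k : ℕ) (z : G) :
    Prop where
  hchar : C.Characteristic
  hZ : ∀ u, u ∈ zpowers ζ ↔ ∀ c ∈ C, Commute u c
  hZC : zpowers ζ ≤ C
  hord : orderOf ζ = p ^ k
  hk : 1 ≤ k
  hz : z = ζ ^ (p ^ (k - 1))
  hzc : ∀ g : G, Commute z g
  hpow : ∀ x ∈ C, x ^ p ∈ zpowers ζ
  hcomm : ∀ x ∈ C, ∀ g : G, ⁅x, g⁆ ∈ zpowers ζ

namespace SympCtx

variable {G : Type*} [Group G] {p : ℕ} {C : Subgroup G} {ζ : G} {k : ℕ} {z : G}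

theorem hzo [Fact p.Prime] (ctx : SympCtx p C ζ k z) : orderOf z = p := by
  rw [ctx.hz]
  exact symp_orderOf_pow_pred Fact.out ctx.hk ctx.hord

theorem zpow_eq [Fact p.Prime] (ctx : SympCtx p C ζ k z) : z ^ p = 1 := by
  rw [← ctx.hzo]; exact pow_orderOf_eq_one z

theorem mem_Z1 [Fact p.Prime] (ctx : SympCtx p C ζ k z) {b : G} (hb : b ∈ zpowers ζ)
    (hbp : b ^ p = 1) : b ∈ zpowers z := by
  rw [ctx.hz]
  exact symp_mem_zpowers_pow Fact.out ctx.hk ctx.hord hb hbp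

theorem zZ (ctx : SympCtx p C ζ k z) : z ∈ zpowers ζ := by
  rw [ctx.hz]; exact pow_mem (mem_zpowers ζ) _

theorem Z1Z (ctx : SympCtx p C ζ k z) : zpowers z ≤ zpowers ζ := zpowers_le.mpr ctx.zZ

theorem Z1C (ctx : SympCtx p C ζ k z) : zpowers z ≤ C := ctx.Z1Z.trans ctx.hZC

theorem Z1c (ctx : SympCtx p C ζ k z) {u : G} (hu : u ∈ zpowers z) (g : G) : Commute u g := by
  obtain ⟨i, rfl⟩ := mem_zpowers_iff.mp hu
  exact (ctx.hzc g).zpow_left i

theorem Z1pow [Fact p.Prime] (ctx : SympCtx p C ζ k z) {u : G} (hu : u ∈ zpowers z) :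
    u ^ p = 1 := by
  obtain ⟨i, rfl⟩ := mem_zpowers_iff.mp hu
  rw [← zpow_natCast, ← zpow_mul, mul_comm, zpow_mul, zpow_natCast, ctx.zpow_eq, one_zpow]

theorem hcc (ctx : SympCtx p C ζ k z) : ∀ a ∈ C, ∀ b ∈ C, ∀ t ∈ C, Commute ⁅a, b⁆ t :=
  fun a ha b _ t ht => (ctx.hZ _).mp (ctx.hcomm a ha b) t ht

theorem comm_pow [Fact p.Prime] (ctx : SympCtx p C ζ k z) {x y : G} (hx : x ∈ C) (hy : y ∈ C) :
    ⁅x, y⁆ ^ p = 1 := by
  rw [← symp_comm_pow_left C ctx.hcc hx hy, commutatorElement_eq_one_iff_commute]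
  exact (ctx.hZ _).mp (ctx.hpow x hx) y hy

theorem comm_Z1 [Fact p.Prime] (ctx : SympCtx p C ζ k z) {x y : G} (hx : x ∈ C) (hy : y ∈ C) :
    ⁅x, y⁆ ∈ zpowers z :=
  ctx.mem_Z1 (ctx.hcomm x hx y) (ctx.comm_pow hx hy)

theorem Znormal (ctx : SympCtx p C ζ k z) {u : G} (hu : u ∈ zpowers ζ) (g : G) :
    g * u * g⁻¹ ∈ zpowers ζ := by
  rw [ctx.hZ]
  intro c hc
  have := ctx.hchar
  have hc' : g⁻¹ * c * g ∈ C := by
    have := (inferInstance : C.Normal).conj_mem c hc g⁻¹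
    simpa using this
  have h1 := (ctx.hZ u).mp hu _ hc'
  have h2 : g * u * g⁻¹ * c = g * (u * (g⁻¹ * c * g)) * g⁻¹ := by group
  have h3 : c * (g * u * g⁻¹) = g * ((g⁻¹ * c * g) * u) * g⁻¹ := by group
  show g * u * g⁻¹ * c = c * (g * u * g⁻¹)
  rw [h2, h3, h1.eq]

/-- Every element of `C` can be corrected by an element of `⟨ζ⟩` to have `p`-th power in `⟨z⟩`. -/
theorem hexp [Finite G] [Fact p.Prime] (ctx : SympCtx p C ζ k z) (hG : IsPGroup p G)
    (hsymp : ∀ A : Subgroup G, A.Characteristic → IsMulCommutative A → IsCyclic A) :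
    ∀ x ∈ C, ∃ ζ' ∈ zpowers ζ, (x * ζ') ^ p ∈ zpowers z := by
  have hp : p.Prime := Fact.out
  intro x hx
  by_cases hpk : p ≠ 2 ∨ 2 ≤ k
  · have hexp := symp_exponent hG hsymp C ctx.hchar ζ k ctx.hk ctx.hord
      (fun u => ⟨fun hu => ⟨ctx.hZC hu, (ctx.hZ u).mp hu⟩, fun hu => (ctx.hZ u).mpr hu.2⟩) hpk
      (fun x hx y hy => ⟨ctx.hcc x hx y hy, ctx.comm_pow hx hy⟩) x hx
    have hN : p ^ k = p * p ^ (k - 1) := by rw [← pow_succ']; congr 1; have := ctx.hk; omega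
    have h1 : (x ^ p) ^ (p ^ (k - 1)) = 1 := by rw [← pow_mul, ← hN]; exact hexp
    obtain ⟨a', ha', hxa'⟩ := symp_exists_pow_eq hp ctx.hk ctx.hord (ctx.hpow x hx) h1
    refine ⟨a'⁻¹, inv_mem ha', ?_⟩
    have hc : Commute x a'⁻¹ := (((ctx.hZ a').mp ha' x hx).symm).inv_right
    rw [hc.mul_pow, hxa', inv_pow, mul_inv_cancel]
    exact one_mem _
  · push Not at hpk
    have hk1 : k = 1 := by have := ctx.hk; omega
    have hzζ : z = ζ := by rw [ctx.hz, hk1]; simp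
    refine ⟨1, one_mem _, ?_⟩
    rw [mul_one, hzζ]
    exact ctx.hpow x hx

/-- A maximal subgroup `E` of `C` with `⟨z⟩ ≤ E` and `E ∩ ⟨ζ⟩ = ⟨z⟩` satisfies `C = E ⟨ζ⟩`. -/
theorem exists_E [Finite G] [Fact p.Prime] (ctx : SympCtx p C ζ k z)
    (hexp : ∀ x ∈ C, ∃ ζ' ∈ zpowers ζ, (x * ζ') ^ p ∈ zpowers z) :
    ∃ E : Subgroup G, zpowers z ≤ E ∧ E ≤ C ∧ (∀ u ∈ E, u ∈ zpowers ζ → u ∈ zpowers z) ∧
      (∀ x ∈ C, ∃ e ∈ E, ∃ ζ' ∈ zpowers ζ, x = e * ζ') := by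
  have hp : p.Prime := Fact.out
  let S : Set (Subgroup G) :=
    {E | zpowers z ≤ E ∧ E ≤ C ∧ ∀ u ∈ E, u ∈ zpowers ζ → u ∈ zpowers z}
  have hne : S.Nonempty := ⟨zpowers z, le_rfl, ctx.Z1C, fun u hu _ => hu⟩
  obtain ⟨E, hES, hmax⟩ :=
    WellFounded.has_min (wellFounded_gt : WellFounded ((· > ·) : Subgroup G → Subgroup G → Prop))
      S hne
  obtain ⟨hzE, hEC, hEZ⟩ := hES
  refine ⟨E, hzE, hEC, hEZ, ?_⟩
  intro x hx
  by_contra hcon
  obtain ⟨ζ', hζ', hy⟩ := hexp x hx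
  obtain ⟨y, hydef⟩ : ∃ y, y = x * ζ' := ⟨_, rfl⟩
  rw [← hydef] at hy
  have hyC : y ∈ C := hydef ▸ mul_mem hx (ctx.hZC hζ')
  have hxy : x = y * ζ'⁻¹ := by rw [hydef]; group
  have hyE : y ∉ E := fun h => hcon ⟨y, h, ζ'⁻¹, inv_mem hζ', hxy⟩
  have hCn : C ≤ normalizer (E : Set G) := by
    apply Helper53.le_normalizer_of_conj_mem
    intro c hc e he
    have : c * e * c⁻¹ = ⁅c, e⁆ * e := by rw [commutatorElement_def]; group
    rw [this]
    exact mul_mem (hzE (ctx.comm_Z1 hc (hEC he))) he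
  have hyn : y ∈ normalizer (E : Set G) := hCn hyC
  have hE'S : E ⊔ zpowers y ∈ S := by
    refine ⟨hzE.trans le_sup_left, sup_le hEC (zpowers_le.mpr hyC), ?_⟩
    intro u hu huZ
    obtain ⟨j, hj⟩ := symp_mem_sup_zpowers hyn hu
    have hypE : y ^ p ∈ E := hzE hy
    by_cases hpj : (p : ℤ) ∣ j
    · obtain ⟨j', rfl⟩ := hpj
      have h1 : y ^ ((p : ℤ) * j') ∈ E := by
        rw [zpow_mul, zpow_natCast]
        exact zpow_mem hypE j'
      have h2 : u = (u * y ^ ((p : ℤ) * j')) * (y ^ ((p : ℤ) * j'))⁻¹ := by group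
      rw [h2]
      exact hEZ _ (by rw [← h2]; exact (h2 ▸ mul_mem hj (inv_mem h1))) (by rw [← h2]; exact huZ)
    · exfalso
      have hcop : IsCoprime (p : ℤ) j :=
        (Prime.coprime_iff_not_dvd (Nat.prime_iff_prime_int.mp hp)).mpr hpj
      obtain ⟨α, β, hαβ⟩ := hcop
      obtain ⟨e₀, he₀def⟩ : ∃ e₀, e₀ = u * y ^ j := ⟨_, rfl⟩
      have he₀ : e₀ ∈ E := he₀def ▸ hj
      have hyj : y ^ j = u⁻¹ * e₀ := by rw [he₀def]; group
      have hue : Commute u⁻¹ e₀ := (((ctx.hZ u).mp huZ e₀ (hEC he₀))).inv_left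
      have hy1 : y = (y ^ p) ^ α * ((u⁻¹) ^ β * e₀ ^ β) := by
        have h3 : y = y ^ (α * (p : ℤ) + β * j) := by rw [hαβ, zpow_one]
        have h4 : y ^ (α * (p : ℤ) + β * j) = (y ^ p) ^ α * (y ^ j) ^ β := by
          rw [zpow_add, mul_comm α, zpow_mul, zpow_natCast, mul_comm β, zpow_mul]
        rw [← hue.mul_zpow, ← hyj, ← h4]
        exact h3
      have huβ : (u⁻¹) ^ β ∈ zpowers ζ := zpow_mem (inv_mem huZ) β
      have hcomm2 : Commute ((u⁻¹) ^ β) (e₀ ^ β) :=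
        (ctx.hZ _).mp huβ _ (hEC (zpow_mem he₀ β))
      apply hcon
      refine ⟨(y ^ p) ^ α * e₀ ^ β, mul_mem (zpow_mem hypE α) (zpow_mem he₀ β),
        (u⁻¹) ^ β * ζ'⁻¹, mul_mem huβ (inv_mem hζ'), ?_⟩
      rw [hxy]
      conv_lhs => rw [hy1]
      rw [hcomm2.eq]
      group
  have hlt : E < E ⊔ zpowers y := by
    refine lt_of_le_of_ne le_sup_left ?_
    intro h
    apply hyE
    rw [h]
    exact (le_sup_right : zpowers y ≤ E ⊔ zpowers y) (mem_zpowers y)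
  exact hmax _ hE'S hlt

/-- The decomposition `C = E ⟨ζ⟩`, `G = E C_G(E)` with `E` trivial or extraspecial. -/
theorem exists_decomp [Finite G] [Fact p.Prime] (ctx : SympCtx p C ζ k z)
    (hexp : ∀ x ∈ C, ∃ ζ' ∈ zpowers ζ, (x * ζ') ^ p ∈ zpowers z) :
    ∃ E : Subgroup G, (E = ⊥ ∨ Cfsg.IsExtraspecial p ↥E) ∧ E ≤ C ∧
      (∀ g : G, ∃ e ∈ E, ∃ c ∈ centralizer (E : Set G), g = e * c) ∧
      (∀ x ∈ C, ∃ e ∈ E, ∃ ζ' ∈ zpowers ζ, x = e * ζ') ∧
      (∀ g : G, ∀ e ∈ E, ⁅g, e⁆ ∈ zpowers z) := by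
  have hp : p.Prime := Fact.out
  by_cases hab : ∀ x ∈ C, ∀ y ∈ C, Commute x y
  · refine ⟨⊥, Or.inl rfl, bot_le, ?_, ?_, ?_⟩
    · intro g
      refine ⟨1, one_mem _, g, ?_, by simp⟩
      rw [mem_centralizer_iff]
      intro h hh
      have : h = 1 := hh
      rw [this]; simp
    · intro x hx
      exact ⟨1, one_mem _, x, (ctx.hZ x).mpr (hab x hx), by simp⟩
    · intro g e he
      have : e = 1 := he
      rw [this, commutatorElement_one_right]
      exact one_mem _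
  · obtain ⟨E, hzE, hEC, hEZ, hdec⟩ := ctx.exists_E hexp
    have hZE : E ⊓ centralizer (E : Set G) = zpowers z := by
      ext u
      rw [mem_inf, mem_centralizer_iff]
      constructor
      · rintro ⟨huE, hu⟩
        apply hEZ u huE
        rw [ctx.hZ]
        intro c hc
        obtain ⟨e, he, ζ', hζ', rfl⟩ := hdec c hc
        have h1 : Commute u e := (hu e he).symm
        have h2 : Commute u ζ' := ((ctx.hZ ζ').mp hζ' u (hEC huE)).symm
        exact h1.mul_right h2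
      · intro hu
        exact ⟨hzE hu, fun h _ => (ctx.Z1c hu h).eq.symm⟩
    have hcard : Nat.card ↥(E ⊓ centralizer (E : Set G)) = p := by
      rw [hZE, Nat.card_zpowers, ctx.hzo]
    have hcommE : ∀ a ∈ E, ∀ b ∈ E, ⁅a, b⁆ ∈ centralizer (E : Set G) := by
      intro a ha b hb
      have := ctx.comm_Z1 (hEC ha) (hEC hb)
      rw [← hZE] at this
      exact this.2
    have hnab : ¬ E ≤ centralizer (E : Set G) := by
      intro hle
      apply hab
      intro x hx y hy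
      obtain ⟨e, he, ζ', hζ', rfl⟩ := hdec x hx
      obtain ⟨e', he', ζ'', hζ'', rfl⟩ := hdec y hy
      have c1 : Commute e e' := (mem_centralizer_iff.mp (hle he') e he)
      have c2 : Commute e ζ'' := ((ctx.hZ ζ'').mp hζ'' e (hEC he)).symm
      have c3 : Commute ζ' e' := (ctx.hZ ζ').mp hζ' e' (hEC he')
      have c4 : Commute ζ' ζ'' := (ctx.hZ ζ').mp hζ' ζ'' (ctx.hZC hζ'')
      exact (c1.mul_right c2).mul_left (c3.mul_right c4)
    have hE5 : ∀ g : G, ∀ e ∈ E, ⁅g, e⁆ ∈ zpowers z := by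
      intro g e he
      have heC : e ∈ C := hEC he
      have h1 : ⁅e, g⁆ ∈ zpowers ζ := ctx.hcomm e heC g
      have h2 : ⁅e, g⁆ ^ p = 1 := by
        rw [← symp_comm_pow_of_commute e g ((ctx.hZ _).mp h1 e heC),
          commutatorElement_eq_one_iff_commute]
        exact ctx.Z1c (hEZ _ (pow_mem he p) (ctx.hpow e heC)) g
      have h3 := ctx.mem_Z1 h1 h2
      rw [← commutatorElement_inv]
      exact inv_mem h3
    refine ⟨E, Or.inr (symp_isExtraspecial_sub E hcard hcommE hnab), hEC, ?_, hdec, hE5⟩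
    intro g
    exact Helper2.exists_mul_centralizer_of_commutator_mem E hcard hcommE hnab g
      (fun e he => by rw [hZE]; exact hE5 g e he)

end SympCtx

end Cfsg.Agent.Lib.Helper54
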