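import Mathlib
import Cfsg.Agent.Lib.Helper54.SympE

/-!
# Symplectic-type `p`-groups: the subgroup `T` of elements acting trivially on `⟨ζ⟩ / ⟨z⟩`
-/

namespace Cfsg.Agent.Lib.Helper54

open Subgroup
open scoped commutatorElement

/-- For a central element `z`, the subgroup `{a | ⁅b, a⁆ ∈ ⟨z⟩}`. -/
def sympCommSub {G : Type*} [Group G] (z : G) (hz : ∀ g : G, Commute z g) (b : G) :
    Subgroup G where
  carrier := {a | ⁅b, a⁆ ∈ zpowers z}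
  mul_mem' := by
    intro a a' ha ha'
    have h1 : ⁅b, a * a'⁆ = ⁅b, a⁆ * (a * ⁅b, a'⁆ * a⁻¹) := by
      simp only [commutatorElement_def]; group
    have h2 : a * ⁅b, a'⁆ * a⁻¹ = ⁅b, a'⁆ := by
      obtain ⟨i, hi⟩ := mem_zpowers_iff.mp ha'
      rw [← hi]
      exact (((hz a).zpow_left i).symm).mul_inv_cancel
    show ⁅b, a * a'⁆ ∈ zpowers z
    rw [h1, h2]
    exact mul_mem ha ha'
  one_mem' := by
    show ⁅b, 1⁆ ∈ zpowers z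
    rw [commutatorElement_one_right]
    exact one_mem _
  inv_mem' := by
    intro a ha
    have h1 : ⁅b, a⁻¹⁆ = a⁻¹ * ⁅b, a⁆⁻¹ * a := by
      simp only [commutatorElement_def]; group
    have h2 : a⁻¹ * ⁅b, a⁆⁻¹ * a = ⁅b, a⁆⁻¹ := by
      obtain ⟨i, hi⟩ := mem_zpowers_iff.mp ha
      rw [← hi]
      have hc : Commute a⁻¹ (z ^ i)⁻¹ := ((((hz a).zpow_left i).symm).inv_left).inv_right
      have := hc.mul_inv_cancel
      rwa [inv_inv] at this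
    show ⁅b, a⁻¹⁆ ∈ zpowers z
    rw [h1, h2]
    exact inv_mem ha

theorem mem_sympCommSub {G : Type*} [Group G] (z : G) (hz : ∀ g : G, Commute z g) (b a : G) :
    a ∈ sympCommSub z hz b ↔ ⁅b, a⁆ ∈ zpowers z := Iff.rfl

/-- The subgroup of elements `g` with `⁅⟨ζ⟩, g⁆ ≤ ⟨z⟩`. -/
def sympT {G : Type*} [Group G] (z : G) (hz : ∀ g : G, Commute z g) (ζ : G) : Subgroup G :=
  ⨅ u : zpowers ζ, sympCommSub z hz (u : G)

theorem mem_sympT {G : Type*} [Group G] (z : G) (hz : ∀ g : G, Commute z g) (ζ g : G) :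
    g ∈ sympT z hz ζ ↔ ∀ u ∈ zpowers ζ, ⁅u, g⁆ ∈ zpowers z := by
  rw [sympT, mem_iInf]
  constructor
  · intro h u hu
    exact h ⟨u, hu⟩
  · intro h u
    exact h u u.2

namespace SympCtx

variable {G : Type*} [Group G] {p : ℕ} {C : Subgroup G} {ζ : G} {k : ℕ} {z : G}

theorem Zchar (ctx : SympCtx p C ζ k z) (φ : G ≃* G) {u : G} (hu : u ∈ zpowers ζ) :
    φ u ∈ zpowers ζ := by
  rw [ctx.hZ]
  intro c hc
  have hc' : φ.symm c ∈ C := characteristic_iff_le_comap.mp ctx.hchar φ.symm hc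
  have h1 := (ctx.hZ u).mp hu _ hc'
  have h2 := h1.map φ
  simpa using h2

theorem C_le_T (ctx : SympCtx p C ζ k z) : C ≤ sympT z ctx.hzc ζ := by
  intro c hc
  rw [mem_sympT]
  intro u hu
  rw [commutatorElement_eq_one_iff_commute.mpr ((ctx.hZ u).mp hu c hc)]
  exact one_mem _

theorem T_char [Fact p.Prime] (ctx : SympCtx p C ζ k z) :
    (sympT z ctx.hzc ζ).Characteristic := by
  rw [characteristic_iff_le_comap]
  intro φ g hg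
  rw [mem_comap, mem_sympT]
  intro u hu
  have hu' : φ.symm u ∈ zpowers ζ := ctx.Zchar φ.symm hu
  have h1 := (mem_sympT z ctx.hzc ζ g).mp hg _ hu'
  obtain ⟨i, hi⟩ := mem_zpowers_iff.mp h1
  have h2 : φ ⁅φ.symm u, g⁆ = ⁅u, φ g⁆ := by
    rw [map_commutatorElement]; simp
  have hφz : φ z ∈ zpowers z := by
    apply ctx.mem_Z1 (ctx.Zchar φ ctx.zZ)
    rw [← map_pow, ctx.zpow_eq, map_one]
  show ⁅u, φ g⁆ ∈ zpowers z
  rw [← h2, ← hi, map_zpow]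
  exact zpow_mem hφz i

theorem comm_pow_T [Fact p.Prime] (ctx : SympCtx p C ζ k z) {g : G}
    (hg : g ∈ sympT z ctx.hzc ζ) (n : ℕ) : ⁅ζ ^ n, g⁆ = ⁅ζ, g⁆ ^ n :=
  symp_comm_pow_of_commute ζ g
    (ctx.Z1c ((mem_sympT z ctx.hzc ζ g).mp hg ζ (mem_zpowers ζ)) ζ) n

/-- If `k ≤ 2` then `T` is the whole group. -/
theorem T_eq_top [Fact p.Prime] (ctx : SympCtx p C ζ k z) (hk2 : k ≤ 2) (g : G) :
    g ∈ sympT z ctx.hzc ζ := by
  have hζp : ζ ^ p ∈ zpowers z := by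
    have hk := ctx.hk
    have hk' : k = 1 ∨ k = 2 := by omega
    rcases hk' with h | h
    · have hzζ : z = ζ := by rw [ctx.hz, h]; simp
      rw [← hzζ]
      exact pow_mem (mem_zpowers z) p
    · have hzζ : z = ζ ^ p := by rw [ctx.hz, h]; simp
      rw [← hzζ]
      exact mem_zpowers z
  rw [mem_sympT]
  intro u hu
  have hup : u ^ p ∈ zpowers z := by
    obtain ⟨i, rfl⟩ := mem_zpowers_iff.mp hu
    rw [← zpow_natCast, ← zpow_mul, mul_comm, zpow_mul, zpow_natCast]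
    exact zpow_mem hζp i
  have hv : g * u⁻¹ * g⁻¹ ∈ zpowers ζ := ctx.Znormal (inv_mem hu) g
  have hcomm : Commute u (g * u⁻¹ * g⁻¹) := (ctx.hZ u).mp hu _ (ctx.hZC hv)
  have h1 : ⁅u, g⁆ = u * (g * u⁻¹ * g⁻¹) := by rw [commutatorElement_def]; group
  rw [h1]
  apply ctx.mem_Z1 (mul_mem hu hv)
  rw [hcomm.mul_pow, conj_pow, inv_pow, (ctx.Z1c (inv_mem hup) g).symm.mul_inv_cancel,
    mul_inv_cancel]

/-- Structure of `T` when it is strictly larger than `C`. -/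
theorem T_facts [Finite G] [Fact p.Prime] (ctx : SympCtx p C ζ k z)
    (hCZ : ∀ g : G, Commute ζ g → g ∈ C)
    (hTC : ∀ h ∈ sympT z ctx.hzc ζ, ∀ c ∈ C, ⁅h, c⁆ ∈ zpowers z)
    {g₀ : G} (hg₀ : g₀ ∈ sympT z ctx.hzc ζ) (hg₀C : g₀ ∉ C) :
    2 ≤ k ∧
    (∀ h ∈ sympT z ctx.hzc ζ, ∀ h' ∈ sympT z ctx.hzc ζ, ⁅h, h'⁆ ∈ zpowers z) ∧
    (∀ u, u ∈ zpowers (ζ ^ p) ↔ u ∈ sympT z ctx.hzc ζ ∧ ∀ t ∈ sympT z ctx.hzc ζ, Commute u t) := by
  have hp : p.Prime := Fact.out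
  obtain ⟨w₀, hw₀def⟩ : ∃ w₀, w₀ = ⁅ζ, g₀⁆ := ⟨_, rfl⟩
  have hw₀z : w₀ ∈ zpowers z := hw₀def ▸ (mem_sympT z ctx.hzc ζ g₀).mp hg₀ ζ (mem_zpowers ζ)
  have hw₀1 : w₀ ≠ 1 := by
    intro h
    rw [hw₀def, commutatorElement_eq_one_iff_commute] at h
    exact hg₀C (hCZ g₀ h)
  have hk2 : 2 ≤ k := by
    by_contra hlt
    have hk1 : k = 1 := by have := ctx.hk; omega
    have hzζ : z = ζ := by rw [ctx.hz, hk1]; simp
    exact hg₀C (hCZ g₀ (hzζ ▸ ctx.hzc g₀))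
  have hcardz : Nat.card (zpowers z) = p := by rw [Nat.card_zpowers, ctx.hzo]
  have hgen : ∀ u ∈ zpowers z, ∃ i : ℕ, w₀ ^ i = u := fun u hu =>
    Helper2.exists_pow_eq_of_card_prime (zpowers z) hcardz hw₀z hw₀1 hu
  have hζT : ∀ h ∈ sympT z ctx.hzc ζ, ⁅ζ, h⁆ ∈ zpowers z := fun h hh =>
    (mem_sympT z ctx.hzc ζ h).mp hh ζ (mem_zpowers ζ)
  -- `T = C ⟨g₀⟩`
  have hdecT : ∀ h ∈ sympT z ctx.hzc ζ, ∃ j : ℕ, ∃ c ∈ C, h = c * g₀ ^ j := by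
    intro h hh
    obtain ⟨j, hj⟩ := hgen _ (hζT h hh)
    refine ⟨j, h * (g₀ ^ j)⁻¹, ?_, by group⟩
    apply hCZ
    rw [← commutatorElement_eq_one_iff_commute]
    have h1 : ⁅ζ, h * (g₀ ^ j)⁻¹⁆ = ⁅ζ, h⁆ * (h * ⁅ζ, (g₀ ^ j)⁻¹⁆ * h⁻¹) := by
      simp only [commutatorElement_def]; group
    have h2 : ⁅ζ, (g₀ ^ j)⁻¹⁆ = (g₀ ^ j)⁻¹ * ⁅ζ, g₀ ^ j⁆⁻¹ * g₀ ^ j := by
      simp only [commutatorElement_def]; group
    have h3 : ⁅ζ, g₀ ^ j⁆ = w₀ ^ j := by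
      have hind : ∀ n : ℕ, ⁅ζ, g₀ ^ n⁆ = w₀ ^ n := by
        intro n
        induction n with
        | zero => simp
        | succ n ih =>
          have e1 : ⁅ζ, g₀ ^ (n + 1)⁆ = ⁅ζ, g₀ ^ n⁆ * (g₀ ^ n * ⁅ζ, g₀⁆ * (g₀ ^ n)⁻¹) := by
            rw [pow_succ]; simp only [commutatorElement_def]; group
          rw [e1, ih, ← hw₀def, (ctx.Z1c hw₀z (g₀ ^ n)).symm.mul_inv_cancel, pow_succ]
      exact hind j
    have hwj : w₀ ^ j ∈ zpowers z := pow_mem hw₀z j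
    rw [h1, h2, h3, ← hj]
    have e2 : (g₀ ^ j)⁻¹ * (w₀ ^ j)⁻¹ * g₀ ^ j = (w₀ ^ j)⁻¹ := by
      have hc : Commute (g₀ ^ j)⁻¹ (w₀ ^ j)⁻¹ := (ctx.Z1c (inv_mem hwj) _).symm
      have := hc.mul_inv_cancel
      rwa [inv_inv] at this
    rw [e2, (ctx.Z1c (inv_mem hwj) h).symm.mul_inv_cancel, mul_inv_cancel]
  -- commutators of `T`
  have hTT : ∀ h ∈ sympT z ctx.hzc ζ, ∀ h' ∈ sympT z ctx.hzc ζ, ⁅h, h'⁆ ∈ zpowers z := by
    have hg₀all : ∀ h ∈ sympT z ctx.hzc ζ, ⁅g₀, h⁆ ∈ zpowers z := by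
      intro h hh
      obtain ⟨j, c, hc, rfl⟩ := hdecT h hh
      have m1 : c ∈ sympCommSub z ctx.hzc g₀ := hTC g₀ hg₀ c hc
      have m2 : g₀ ∈ sympCommSub z ctx.hzc g₀ := by
        rw [mem_sympCommSub, commutatorElement_self]; exact one_mem _
      exact (mem_sympCommSub z ctx.hzc g₀ _).mp (mul_mem m1 (pow_mem m2 j))
    intro h hh h' hh'
    obtain ⟨j, c, hc, rfl⟩ := hdecT h' hh'
    have m1 : c ∈ sympCommSub z ctx.hzc h := hTC h hh c hc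
    have m2 : g₀ ∈ sympCommSub z ctx.hzc h := by
      rw [mem_sympCommSub, ← commutatorElement_inv]
      exact inv_mem (hg₀all h hh)
    exact (mem_sympCommSub z ctx.hzc h _).mp (mul_mem m1 (pow_mem m2 j))
  refine ⟨hk2, hTT, ?_⟩
  have hζpc : ∀ t ∈ sympT z ctx.hzc ζ, Commute (ζ ^ p) t := by
    intro t ht
    rw [← commutatorElement_eq_one_iff_commute, ctx.comm_pow_T ht]
    exact ctx.Z1pow (hζT t ht)
  have hw₀o : orderOf w₀ = p := orderOf_eq_prime (ctx.Z1pow hw₀z) hw₀1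
  intro u
  constructor
  · intro hu
    obtain ⟨i, rfl⟩ := mem_zpowers_iff.mp hu
    refine ⟨ctx.C_le_T (ctx.hZC (zpow_mem (pow_mem (mem_zpowers ζ) p) i)), fun t ht => ?_⟩
    exact (hζpc t ht).zpow_left i
  · rintro ⟨huT, hu⟩
    have huZ : u ∈ zpowers ζ := (ctx.hZ u).mpr (fun c hc => hu c (ctx.C_le_T hc))
    obtain ⟨n, rfl⟩ := symp_exists_nat_pow huZ
    have h1 : ⁅ζ ^ n, g₀⁆ = 1 := commutatorElement_eq_one_iff_commute.mpr (hu g₀ hg₀)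
    rw [ctx.comm_pow_T hg₀, ← hw₀def] at h1
    have h2 : p ∣ n := by rw [← hw₀o]; exact orderOf_dvd_of_pow_eq_one h1
    obtain ⟨n', rfl⟩ := h2
    rw [pow_mul]
    exact pow_mem (mem_zpowers _) n'

end SympCtx

end Cfsg.Agent.Lib.Helper54
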