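import Mathlib
import Cfsg.Agent.Lib.Helper48.Noncyclic
import Cfsg.Agent.Lib.Helper54.SympT

/-!
# Symplectic-type `p`-groups: normal abelian subgroups of `R = C_G(E)` are cyclic
-/

namespace Cfsg.Agent.Lib.Helper54

open Subgroup
open scoped commutatorElement

namespace SympCtx

variable {G : Type*} [Group G] {p : ℕ} {C : Subgroup G} {ζ : G} {k : ℕ} {z : G}

theorem R_normal_cyclic [Finite G] [Fact p.Prime] (ctx : SympCtx p C ζ k z) (hG : IsPGroup p G)
    (R : Subgroup G) (hZR : zpowers ζ ≤ R) (hRC : ∀ r ∈ R, r ∈ C → r ∈ zpowers ζ)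
    (hT : sympT z ctx.hzc ζ ≤ C)
    (A : Subgroup ↥R) (hAn : A.Normal) (hAc : IsMulCommutative A) : IsCyclic A := by
  have hp : p.Prime := Fact.out
  by_contra hnc
  letI : CommGroup ↥A :=
    { (inferInstance : Group ↥A) with mul_comm := fun a b => hAc.is_comm.comm a b }
  obtain ⟨q, hq, a, b, haq, hbq, hb1, hab⟩ := Helper48.exists_rank_two hnc
  have hAp : IsPGroup p ↥A := (hG.to_subgroup R).to_subgroup A
  have hqp : q = p := by
    obtain ⟨j, hj⟩ := IsPGroup.iff_orderOf.mp hAp b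
    have h1 : orderOf b ∣ q := orderOf_dvd_of_pow_eq_one hbq
    have h2 : orderOf b ≠ 1 := fun h => hb1 (orderOf_eq_one_iff.mp h)
    have h3 : orderOf b = q := ((Nat.dvd_prime hq).mp h1).resolve_left h2
    rw [hj] at h3
    have hj0 : j ≠ 0 := by
      rintro rfl
      rw [pow_zero] at h3
      exact hq.one_lt.ne h3
    have : p ∣ q := by rw [← h3]; exact dvd_pow_self p hj0
    exact ((Nat.prime_dvd_prime_iff_eq hp hq).mp this).symm
  subst hqp
  have hv : ∃ v : ↥A, v ^ q = 1 ∧ ((v : ↥R) : G) ∉ zpowers z := by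
    by_contra hcon
    push Not at hcon
    have ha' := hcon a haq
    have hb' := hcon b hbq
    have hbG : ((b : ↥R) : G) ≠ 1 := by
      intro h
      apply hb1
      apply Subtype.ext
      apply Subtype.ext
      simpa using h
    have hcardz : Nat.card (zpowers z) = q := by rw [Nat.card_zpowers, ctx.hzo]
    obtain ⟨i, hi⟩ := Helper2.exists_pow_eq_of_card_prime (zpowers z) hcardz hb' hbG ha'
    apply hab
    rw [mem_zpowers_iff]
    refine ⟨i, ?_⟩
    apply Subtype.ext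
    apply Subtype.ext
    simpa using hi
  obtain ⟨v, hvp, hvz⟩ := hv
  have hvpG : ((v : ↥R) : G) ^ q = 1 := by
    have := congrArg (fun x : ↥A => ((x : ↥R) : G)) hvp
    simpa using this
  have hvR : ((v : ↥R) : G) ∈ R := (v : ↥R).2
  have hvT : ((v : ↥R) : G) ∈ sympT z ctx.hzc ζ := by
    rw [mem_sympT]
    intro u hu
    have huR : u ∈ R := hZR hu
    have hconj : (⟨u, huR⟩ : ↥R) * (v : ↥R) * (⟨u, huR⟩ : ↥R)⁻¹ ∈ A := hAn.conj_mem _ v.2 _
    obtain ⟨w, hwdef⟩ : ∃ w : ↥A, w = ⟨_, hconj⟩ * v⁻¹ := ⟨_, rfl⟩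
    have hcp : (⟨_, hconj⟩ : ↥A) ^ q = 1 := by
      apply Subtype.ext
      show ((⟨u, huR⟩ : ↥R) * (v : ↥R) * (⟨u, huR⟩ : ↥R)⁻¹) ^ q = 1
      rw [conj_pow]
      have : (v : ↥R) ^ q = 1 := by
        have := congrArg Subtype.val hvp
        simpa using this
      rw [this]; simp
    have hwp : w ^ q = 1 := by
      rw [hwdef, mul_pow, inv_pow, hvp, inv_one, mul_one, hcp]
    have hwG : ((w : ↥R) : G) = ⁅u, ((v : ↥R) : G)⁆ := by
      rw [hwdef]; simp [commutatorElement_def]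
    have hwZ : ⁅u, ((v : ↥R) : G)⁆ ∈ zpowers ζ := by
      have : ⁅u, ((v : ↥R) : G)⁆ = u * (((v : ↥R) : G) * u⁻¹ * ((v : ↥R) : G)⁻¹) := by
        rw [commutatorElement_def]; group
      rw [this]
      exact mul_mem hu (ctx.Znormal (inv_mem hu) _)
    apply ctx.mem_Z1 hwZ
    rw [← hwG]
    have := congrArg (fun x : ↥A => ((x : ↥R) : G)) hwp
    simpa using this
  have hvC := hT hvT
  have hvZ := hRC _ hvR hvC
  exact hvz (ctx.mem_Z1 hvZ hvpG)

end SympCtx

end Cfsg.Agent.Lib.Helper54
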