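import Mathlib
import Cfsg.Agent.Lib.Helper54.NarrowChain

/-!
# Automorphisms stabilizing a characteristic chain with factors of order at most `p`

* `chain_step`: on a characteristic section of order dividing `p`, automorphisms commute and
  their `(p-1)`-th powers act trivially.
* `chain_stabilizer`: the stabilizer `S` of such a chain in `Aut R` is a normal `p`-subgroup
  containing all commutators and all `(p-1)`-th powers.
* `narrow_action`: the consequence for a group acting on a `p`-group of rank at least three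
  having a maximal elementary abelian subgroup of order `p ^ 2`.
-/

set_option autoImplicit false

namespace Cfsg.Agent.Lib.Helper54

open scoped commutatorElement

/-- A step of a characteristic chain whose factor has order dividing `p`. -/
theorem chain_step {R : Type*} [Group R] [Finite R] {p : ℕ} [Fact p.Prime] (hR : IsPGroup p R)
    (A B : Subgroup R) (hA : A.Characteristic) (hB : B.Characteristic) (hBA : B ≤ A)
    (hcard : Nat.card A ≤ p * Nat.card B) :
    (∀ φ ψ : MulAut R, ∀ h ∈ A, (ψ (φ h))⁻¹ * φ (ψ h) ∈ B) ∧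
    (∀ φ : MulAut R, ∀ h ∈ A, h⁻¹ * (φ ^ (p - 1)) h ∈ B) := by
  classical
  have hpp : p.Prime := Fact.out
  have hBn : B.Normal := inferInstance
  have hAφ : ∀ φ : MulAut R, ∀ h, h ∈ A → φ h ∈ A := fun φ h hh =>
    Subgroup.characteristic_iff_le_comap.mp hA φ hh
  have hBφ : ∀ φ : MulAut R, ∀ h, h ∈ B → φ h ∈ B := fun φ h hh =>
    Subgroup.characteristic_iff_le_comap.mp hB φ hh
  obtain ⟨π, hπdef⟩ : ∃ π : R →* R ⧸ B, π = QuotientGroup.mk' B := ⟨_, rfl⟩
  have hπ : ∀ x : R, π x = 1 ↔ x ∈ B := by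
    intro x; rw [hπdef]; exact QuotientGroup.eq_one_iff x
  -- the relative index divides p
  have hrel : B.relIndex A ∣ p := by
    have e1 : Nat.card B * B.relIndex A = Nat.card A := by
      have := Subgroup.relIndex_mul_relIndex (⊥ : Subgroup R) B A bot_le hBA
      rwa [Subgroup.relIndex_bot_left, Subgroup.relIndex_bot_left] at this
    have h1 : B.relIndex A ≤ p := by
      have h2 : Nat.card B * B.relIndex A ≤ Nat.card B * p := by
        rw [e1, mul_comm]; exact hcard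
      exact Nat.le_of_mul_le_mul_left h2 Nat.card_pos
    obtain ⟨c, hc⟩ := (hR.to_subgroup A).exists_card_eq
    have h3 : B.relIndex A ∣ p ^ c := by
      rw [← hc]; exact Subgroup.relIndex_dvd_card B A
    obtain ⟨j, -, hj⟩ := (Nat.dvd_prime_pow hpp).mp h3
    have hj1 : j ≤ 1 := by
      by_contra hcon
      have h4 : p ^ 2 ≤ p ^ j := Nat.pow_le_pow_right hpp.pos (by omega)
      have h5 : p < p ^ 2 := by
        calc p = p ^ 1 := (pow_one p).symm
          _ < p ^ 2 := Nat.pow_lt_pow_right hpp.one_lt (by norm_num)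
      rw [hj] at h1
      omega
    rw [hj]
    calc p ^ j ∣ p ^ 1 := pow_dvd_pow p hj1
      _ = p := pow_one p
  have hP1 : ∀ h ∈ A, π h ^ p = 1 := by
    intro h hh
    have h1 : h ^ B.relIndex A ∈ B := Subgroup.pow_relIndex_mem B hh
    obtain ⟨t, ht⟩ := hrel
    rw [← map_pow, hπ]
    have h2 : h ^ p = (h ^ B.relIndex A) ^ t := by rw [← pow_mul, ← ht]
    rw [h2]
    exact B.pow_mem h1 t
  -- a generator
  have hGEN : ∃ g ∈ A, ∀ h ∈ A, ∃ j : ℕ, π h = π g ^ j := by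
    have hQn : (B.subgroupOf A).Normal := inferInstance
    have hQc : Nat.card (↥A ⧸ B.subgroupOf A) ∣ p := by
      have : (B.subgroupOf A).index = Nat.card (↥A ⧸ B.subgroupOf A) := Subgroup.index_eq_card _
      rw [← this]
      exact hrel
    have hQcyc : IsCyclic (↥A ⧸ B.subgroupOf A) := by
      rcases (Nat.dvd_prime hpp).mp hQc with h1 | h1
      · have : Subsingleton (↥A ⧸ B.subgroupOf A) := (Nat.card_eq_one_iff_unique.mp h1).1
        exact isCyclic_of_subsingleton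
      · exact isCyclic_of_prime_card h1
    obtain ⟨q, hq⟩ := hQcyc.exists_generator
    obtain ⟨g', rfl⟩ := QuotientGroup.mk_surjective q
    refine ⟨g', g'.2, ?_⟩
    intro h hh
    have h1 := hq (QuotientGroup.mk (⟨h, hh⟩ : ↥A))
    rw [← mem_powers_iff_mem_zpowers] at h1
    obtain ⟨j, hj⟩ := h1
    refine ⟨j, ?_⟩
    have h2 : ((g' ^ j : ↥A) : ↥A ⧸ B.subgroupOf A) = ((⟨h, hh⟩ : ↥A) : ↥A ⧸ B.subgroupOf A) := by
      rw [← hj]; rfl
    have h3 := QuotientGroup.eq.mp h2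
    rw [Subgroup.mem_subgroupOf] at h3
    have h4 : ((g' : R) ^ j)⁻¹ * h ∈ B := by simpa using h3
    have h5 := (hπ _).mpr h4
    rw [map_mul, map_inv, map_pow, inv_mul_eq_one] at h5
    exact h5.symm
  obtain ⟨g, hgA, hgen⟩ := hGEN
  -- every automorphism acts as a power map
  have hPM : ∀ φ : MulAut R, ∃ k : ℕ, ∀ h ∈ A, π (φ h) = π h ^ k := by
    intro φ
    obtain ⟨k, hk⟩ := hgen (φ g) (hAφ φ g hgA)
    refine ⟨k, ?_⟩
    intro h hh
    obtain ⟨j, hj⟩ := hgen h hh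
    have hb : (g ^ j)⁻¹ * h ∈ B := by
      rw [← hπ, map_mul, map_inv, map_pow, hj, inv_mul_cancel]
    have h1 : h = g ^ j * ((g ^ j)⁻¹ * h) := by group
    have h2 : π (φ h) = π (φ g) ^ j * π (φ ((g ^ j)⁻¹ * h)) := by
      conv_lhs => rw [h1]
      rw [map_mul, map_pow, map_mul, map_pow]
    rw [h2, (hπ _).mpr (hBφ φ _ hb), mul_one, hk, hj, ← pow_mul, ← pow_mul, mul_comm]
  constructor
  · intro φ ψ h hh
    obtain ⟨k, hk⟩ := hPM φ
    obtain ⟨l, hl⟩ := hPM ψ
    rw [← hπ, map_mul, map_inv, hl _ (hAφ φ h hh), hk h hh, hk _ (hAφ ψ h hh), hl h hh,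
      ← pow_mul, ← pow_mul, mul_comm l k, inv_mul_cancel]
  · intro φ h hh
    obtain ⟨k, hk⟩ := hPM φ
    have hpow : ∀ j : ℕ, ∀ h ∈ A, π ((φ ^ j) h) = π h ^ (k ^ j) := by
      intro j
      induction j with
      | zero => intro h _; simp
      | succ j ih =>
        intro h hh
        rw [pow_succ, MulAut.mul_apply, ih _ (hAφ φ h hh), hk h hh, ← pow_mul, pow_succ, mul_comm]
    rw [← hπ, map_mul, map_inv, hpow (p - 1) h hh, inv_mul_eq_one]
    by_cases hpk : p ∣ k
    · -- then `A = B`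
      have h1 : ∀ h' ∈ A, φ h' ∈ B := by
        intro h' hh'
        obtain ⟨t, ht⟩ := hpk
        rw [← hπ, hk h' hh', ht, pow_mul, hP1 h' hh', one_pow]
      have h2 : h ∈ B := by
        have h3 := h1 (φ⁻¹ h) (hAφ φ⁻¹ h hh)
        rwa [MulAut.apply_inv_self] at h3
      rw [(hπ h).mpr h2, one_pow]
    · have hcop : Nat.Coprime k p := ((Nat.Prime.coprime_iff_not_dvd hpp).mpr hpk).symm
      have h1 : k ^ (p - 1) ≡ 1 [MOD p] := by
        have := Nat.ModEq.pow_totient hcop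
        rwa [Nat.totient_prime hpp] at this
      have h2 : 1 ≤ k ^ (p - 1) := Nat.one_le_pow _ _ (Nat.pos_of_ne_zero (by
        rintro rfl
        exact hpk (dvd_zero p)))
      have h3 : p ∣ k ^ (p - 1) - 1 := (Nat.modEq_iff_dvd' h2).mp h1.symm
      obtain ⟨t, ht⟩ := h3
      have h4 : k ^ (p - 1) = 1 + p * t := by omega
      rw [h4, pow_add, pow_one, pow_mul, hP1 h hh, one_pow, mul_one]

/-- The stabilizer of a characteristic chain with factors of order at most `p`, reaching a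
subgroup on which `p'`-automorphisms act faithfully. -/
theorem chain_stabilizer {R : Type*} [Group R] [Finite R] (p : ℕ) [Fact p.Prime]
    (hR : IsPGroup p R) (m : ℕ) (Fc : ℕ → Subgroup R) (h0 : Fc 0 = ⊥)
    (hchar : ∀ i, (Fc i).Characteristic) (hmono : ∀ i, Fc i ≤ Fc (i + 1))
    (hcard : ∀ i, Nat.card (Fc (i + 1)) ≤ p * Nat.card (Fc i))
    (hfaith : ∀ φ : MulAut R, (orderOf φ).Coprime p → (∀ x ∈ Fc m, φ x = x) → φ = 1) :
    ∃ S : Subgroup (MulAut R), S.Normal ∧ IsPGroup p S ∧ (∀ φ ψ : MulAut R, ⁅φ, ψ⁆ ∈ S) ∧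
      ∀ φ : MulAut R, φ ^ (p - 1) ∈ S := by
  classical
  have hpp : p.Prime := Fact.out
  have hFφ : ∀ i, ∀ φ : MulAut R, ∀ h, h ∈ Fc i → φ h ∈ Fc i := fun i φ h hh =>
    Subgroup.characteristic_iff_le_comap.mp (hchar i) φ hh
  obtain ⟨S, hSdef⟩ : ∃ S : Subgroup (MulAut R),
      ∀ φ : MulAut R, φ ∈ S ↔ ∀ i, ∀ h ∈ Fc (i + 1), h⁻¹ * φ h ∈ Fc i := by
    refine ⟨{ carrier := {φ | ∀ i, ∀ h ∈ Fc (i + 1), h⁻¹ * φ h ∈ Fc i}
              mul_mem' := ?_
              one_mem' := ?_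
              inv_mem' := ?_ }, fun φ => Iff.rfl⟩
    · intro φ ψ hφ hψ i h hh
      have e : h⁻¹ * (φ * ψ) h = (h⁻¹ * ψ h) * ((ψ h)⁻¹ * φ (ψ h)) := by
        rw [MulAut.mul_apply]; group
      rw [e]
      exact (Fc i).mul_mem (hψ i h hh) (hφ i _ (hFφ (i + 1) ψ h hh))
    · intro i h _
      rw [MulAut.one_apply, inv_mul_cancel]
      exact (Fc i).one_mem
    · intro φ hφ i h hh
      have h1 := hφ i (φ⁻¹ h) (hFφ (i + 1) φ⁻¹ h hh)
      rw [MulAut.apply_inv_self] at h1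
      have e : h⁻¹ * φ⁻¹ h = ((φ⁻¹ h)⁻¹ * h)⁻¹ := by group
      rw [e]
      exact (Fc i).inv_mem h1
  have hSn : S.Normal := by
    refine ⟨fun φ hφ ψ => ?_⟩
    rw [hSdef] at hφ ⊢
    intro i h hh
    have h1 := hφ i (ψ⁻¹ h) (hFφ (i + 1) ψ⁻¹ h hh)
    have h2 := hFφ i ψ _ h1
    have e : ψ ((ψ⁻¹ h)⁻¹ * φ (ψ⁻¹ h)) = h⁻¹ * (ψ * φ * ψ⁻¹) h := by
      rw [map_mul, map_inv, MulAut.apply_inv_self, MulAut.mul_apply, MulAut.mul_apply]
    rw [← e]
    exact h2
  have hSp : IsPGroup p S := by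
    intro φ
    obtain ⟨φ, hφ⟩ := φ
    -- the `p'`-part of `φ`
    obtain ⟨n, hn⟩ : ∃ n : ℕ, (orderOf (φ ^ p ^ n)).Coprime p := by
      refine ⟨(orderOf φ).factorization p, ?_⟩
      have h1 : orderOf (φ ^ p ^ (orderOf φ).factorization p)
          = orderOf φ / p ^ (orderOf φ).factorization p :=
        orderOf_pow_of_dvd (pow_ne_zero _ hpp.ne_zero) (Nat.ordProj_dvd _ _)
      rw [h1]
      exact (Nat.coprime_ordCompl hpp (orderOf_pos φ).ne').symm
    have hψS : φ ^ p ^ n ∈ S := S.pow_mem hφ _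
    rw [hSdef] at hψS
    have hfix : ∀ i, ∀ x ∈ Fc i, (φ ^ p ^ n) x = x := by
      intro i
      induction i with
      | zero =>
        intro x hx
        rw [h0, Subgroup.mem_bot] at hx
        rw [hx, map_one]
      | succ i ih =>
        intro x hx
        have hz := hψS i x hx
        have e1 : (φ ^ p ^ n) x = x * (x⁻¹ * (φ ^ p ^ n) x) := by group
        obtain ⟨k, hk⟩ := hR (x⁻¹ * (φ ^ p ^ n) x)
        have h1 := aut_eq_one_of_apply_eq_mul e1 (ih _ hz) hk (Nat.Coprime.pow_right k hn)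
        rw [e1, h1, mul_one]
    have h1 := hfaith _ hn (hfix m)
    exact ⟨n, Subtype.ext h1⟩
  refine ⟨S, hSn, hSp, ?_, ?_⟩
  · intro φ ψ
    rw [hSdef]
    intro i h hh
    have hh' : φ⁻¹ (ψ⁻¹ h) ∈ Fc (i + 1) := hFφ (i + 1) φ⁻¹ _ (hFφ (i + 1) ψ⁻¹ h hh)
    have h1 := (chain_step hR (Fc (i + 1)) (Fc i) (hchar (i + 1)) (hchar i) (hmono i)
      (hcard i)).1 φ ψ _ hh'
    have e1 : ψ (φ (φ⁻¹ (ψ⁻¹ h))) = h := by
      rw [MulAut.apply_inv_self, MulAut.apply_inv_self]
    have e2 : ⁅φ, ψ⁆ h = φ (ψ (φ⁻¹ (ψ⁻¹ h))) := by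
      rw [commutatorElement_def]
      rfl
    rw [e1] at h1
    rw [e2]
    exact h1
  · intro φ
    rw [hSdef]
    intro i h hh
    exact (chain_step hR (Fc (i + 1)) (Fc i) (hchar (i + 1)) (hchar i) (hmono i)
      (hcard i)).2 φ h hh

/-- A group acting on a `p`-group of rank at least three which has a maximal elementary abelian
subgroup of order `p ^ 2` (`p` odd): there is a normal subgroup `N` containing all commutators
and all `(p-1)`-th powers, each of whose elements has a `p`-power power acting trivially. -/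
theorem narrow_action {R : Type*} [Group R] [Finite R] (p : ℕ) [Fact p.Prime] (hp : p ≠ 2)
    (hR : IsPGroup p R) (hr : ¬ Cfsg.PRankLE p 2 R)
    (E : Subgroup R) (hE : Cfsg.IsElementaryAbelian p E) (hE2 : Nat.card E = p ^ 2)
    (hEmax : ∀ B : Subgroup R, Cfsg.IsElementaryAbelian p B → E ≤ B → B = E)
    {X : Type*} [Group X] (θ : X →* MulAut R) :
    ∃ N : Subgroup X, N.Normal ∧ (∀ x y : X, ⁅x, y⁆ ∈ N) ∧ (∀ x : X, x ^ (p - 1) ∈ N) ∧
      ∀ x ∈ N, ∃ k : ℕ, θ (x ^ p ^ k) = 1 := by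
  obtain ⟨m, Fc, h0, hchar, hmono, hcard, hfaith⟩ := narrow_chain p hp hR hr E hE hE2 hEmax
  obtain ⟨S, hSn, hSp, hScomm, hSpow⟩ := chain_stabilizer p hR m Fc h0 hchar hmono hcard hfaith
  refine ⟨S.comap θ, hSn.comap θ, ?_, ?_, ?_⟩
  · intro x y
    rw [Subgroup.mem_comap, map_commutatorElement]
    exact hScomm _ _
  · intro x
    rw [Subgroup.mem_comap, map_pow]
    exact hSpow _
  · intro x hx
    rw [Subgroup.mem_comap] at hx
    obtain ⟨k, hk⟩ := hSp ⟨θ x, hx⟩
    refine ⟨k, ?_⟩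
    rw [map_pow]
    have := congrArg Subtype.val hk
    rwa [Subgroup.coe_pow] at this

end Cfsg.Agent.Lib.Helper54
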