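import Mathlib
import Cfsg.Prelude.Def_OddOrderLocal
import Cfsg.Agent.Lib.Helper54.NarrowAut

/-!
# Maximal elementary abelian subgroups of order `p ^ 2` and narrow `p`-groups

* `mem_sup_of_commute`: elements of the join of two elementwise commuting subgroups.
* `exists_max_elementary`: in a `p`-group of rank at least three, if all elementary abelian
  subgroups containing a given one `E₀` have order at most `p ^ 2`, there is an elementary abelian
  subgroup of order `p ^ 2` contained in no larger one.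
* `narrow_bound`: a narrow `p`-group of rank at least three has such an `E₀`.
* `narrow_action_of_bound`, `narrow_action_of_isNarrow`: the action theorem in these terms.
-/

set_option autoImplicit false

namespace Cfsg.Agent.Lib.Helper54

open scoped commutatorElement

/-- Elements of the join of two elementwise commuting subgroups are products. -/
theorem mem_sup_of_commute {G : Type*} [Group G] (H K : Subgroup G)
    (hc : ∀ a ∈ H, ∀ b ∈ K, a * b = b * a) {x : G} (hx : x ∈ H ⊔ K) :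
    ∃ a ∈ H, ∃ b ∈ K, x = a * b := by
  let S : Subgroup G :=
    { carrier := {x | ∃ a ∈ H, ∃ b ∈ K, x = a * b}
      mul_mem' := by
        rintro _ _ ⟨a, ha, b, hb, rfl⟩ ⟨a', ha', b', hb', rfl⟩
        refine ⟨a * a', H.mul_mem ha ha', b * b', K.mul_mem hb hb', ?_⟩
        calc a * b * (a' * b') = a * (b * a') * b' := by group
          _ = a * (a' * b) * b' := by rw [hc a' ha' b hb]
          _ = a * a' * (b * b') := by group
      one_mem' := ⟨1, H.one_mem, 1, K.one_mem, by simp⟩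
      inv_mem' := by
        rintro _ ⟨a, ha, b, hb, rfl⟩
        refine ⟨a⁻¹, H.inv_mem ha, b⁻¹, K.inv_mem hb, ?_⟩
        rw [mul_inv_rev, hc a⁻¹ (H.inv_mem ha) b⁻¹ (K.inv_mem hb)] }
  have h1 : H ⊔ K ≤ S := by
    apply sup_le
    · intro a ha
      exact ⟨a, ha, 1, K.one_mem, by simp⟩
    · intro b hb
      exact ⟨1, H.one_mem, b, hb, by simp⟩
  exact h1 hx

/-- Existence of a maximal elementary abelian subgroup of order `p ^ 2`. -/
theorem exists_max_elementary {R : Type*} [Group R] [Finite R] (p : ℕ) [Fact p.Prime]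
    (hR : IsPGroup p R) (hr : ¬ Cfsg.PRankLE p 2 R)
    (E₀ : Subgroup R) (hE₀ : Cfsg.IsElementaryAbelian p E₀)
    (hb : ∀ B : Subgroup R, Cfsg.IsElementaryAbelian p B → E₀ ≤ B → Nat.card B ≤ p ^ 2) :
    ∃ E : Subgroup R, Cfsg.IsElementaryAbelian p E ∧ Nat.card E = p ^ 2 ∧
      ∀ B : Subgroup R, Cfsg.IsElementaryAbelian p B → E ≤ B → B = E := by
  classical
  have hpp : p.Prime := Fact.out
  obtain ⟨E, hE₀E, ⟨⟨hEe, -⟩, hmax⟩⟩ := Finite.exists_le_maximal
    (p := fun M : Subgroup R => Cfsg.IsElementaryAbelian p M ∧ E₀ ≤ M) (a := E₀) ⟨hE₀, le_rfl⟩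
  have hEmax : ∀ B : Subgroup R, Cfsg.IsElementaryAbelian p B → E ≤ B → B = E := fun B hB hEB =>
    le_antisymm (hmax ⟨hB, hE₀E.trans hEB⟩ hEB) hEB
  refine ⟨E, hEe, ?_, hEmax⟩
  have hle : Nat.card E ≤ p ^ 2 := hb E hEe hE₀E
  obtain ⟨hEc, hEp⟩ := hEe
  have hcE : ∀ x ∈ E, ∀ y ∈ E, x * y = y * x := fun x hx y hy =>
    congrArg Subtype.val (hEc.is_comm.comm ⟨x, hx⟩ ⟨y, hy⟩)
  have hext : ∀ a : R, a ^ p = 1 → (∀ e ∈ E, a * e = e * a) → a ∈ E := by
    intro a hap hae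
    have hB : Cfsg.IsElementaryAbelian p (E ⊔ Subgroup.zpowers a) :=
      ⟨⟨⟨fun u v => Subtype.ext
          (Cfsg.Agent.Lib.Helper24.sup_zpowers_comm E a hcE hae u u.2 v v.2)⟩⟩,
        Cfsg.Agent.Lib.Helper24.sup_zpowers_pow E a p hcE hEp hae hap⟩
    have h1 := hEmax _ hB le_sup_left
    rw [← h1]
    exact le_sup_right (a := E) (Subgroup.mem_zpowers a)
  unfold Cfsg.PRankLE at hr
  push Not at hr
  obtain ⟨A', hA'c, hA'e, hA'card⟩ := hr
  have hcA' : ∀ x ∈ A', ∀ y ∈ A', x * y = y * x := fun x hx y hy =>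
    congrArg Subtype.val (hA'c.is_comm.comm ⟨x, hx⟩ ⟨y, hy⟩)
  -- a central element of order p
  have hnt : Nontrivial R := by
    rw [← Finite.one_lt_card_iff_nontrivial]
    have h1 : 1 ≤ p ^ 2 := Nat.one_le_pow _ _ hpp.pos
    have h2 : Nat.card A' ≤ Nat.card R := Subgroup.card_le_card_group A'
    omega
  have hcnt : Nontrivial (Subgroup.center R) := hR.center_nontrivial
  have hpd : p ∣ Nat.card (Subgroup.center R) := by
    obtain ⟨k, hk⟩ := (hR.to_subgroup (Subgroup.center R)).exists_card_eq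
    have hk1 : k ≠ 0 := by
      rintro rfl
      rw [pow_zero] at hk
      have := Finite.one_lt_card_iff_nontrivial.mpr hcnt
      omega
    rw [hk]
    exact dvd_pow_self p hk1
  obtain ⟨z, hz⟩ := exists_prime_orderOf_dvd_card' p hpd
  have hzo : orderOf (z : R) = p := by rw [Subgroup.orderOf_coe]; exact hz
  have hzp : (z : R) ^ p = 1 := by rw [← hzo]; exact pow_orderOf_eq_one _
  have hzc : ∀ g : R, (z : R) * g = g * z := fun g => (Subgroup.mem_center_iff.mp z.2 g).symm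
  have hzE : (z : R) ∈ E := hext _ hzp (fun e _ => hzc e)
  -- the order of E
  obtain ⟨k, hk⟩ := (hR.to_subgroup E).exists_card_eq
  have hk2 : k ≤ 2 := by
    rw [hk] at hle
    exact (Nat.pow_le_pow_iff_right hpp.one_lt).mp hle
  by_contra hne
  have hk1 : k ≤ 1 := by
    by_contra hcon
    have : k = 2 := by omega
    rw [this] at hk
    exact hne hk
  have hEz : Subgroup.zpowers (z : R) = E := by
    apply Subgroup.eq_of_le_of_card_ge
    · rw [Subgroup.zpowers_le]; exact hzE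
    · rw [Nat.card_zpowers, hzo, hk]
      calc p ^ k ≤ p ^ 1 := Nat.pow_le_pow_right hpp.pos hk1
        _ = p := pow_one p
  have hB : Cfsg.IsElementaryAbelian p (A' ⊔ Subgroup.zpowers (z : R)) :=
    ⟨⟨⟨fun u v => Subtype.ext
        (Cfsg.Agent.Lib.Helper24.sup_zpowers_comm A' (z : R) hcA' (fun e _ => hzc e)
          u u.2 v v.2)⟩⟩,
      Cfsg.Agent.Lib.Helper24.sup_zpowers_pow A' (z : R) p hcA' hA'e (fun e _ => hzc e) hzp⟩
  have h1 := hEmax _ hB (by rw [← hEz]; exact le_sup_right)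
  have h2 : A' ≤ E := by rw [← h1]; exact le_sup_left
  have h3 : Nat.card A' ≤ Nat.card E := Subgroup.card_le_of_le h2
  rw [hk] at h3
  have h4 : p ^ k ≤ p ^ 2 := Nat.pow_le_pow_right hpp.pos hk2
  omega

/-- A narrow `p`-group of rank at least three has a subgroup of order `p` all of whose
elementary abelian overgroups have order at most `p ^ 2`. -/
theorem narrow_bound {R : Type*} [Group R] [Finite R] (p : ℕ) [Fact p.Prime]
    (hn : Cfsg.IsNarrow p R) (hr : ¬ Cfsg.PRankLE p 2 R) :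
    ∃ E₀ : Subgroup R, Cfsg.IsElementaryAbelian p E₀ ∧
      ∀ B : Subgroup R, Cfsg.IsElementaryAbelian p B → E₀ ≤ B → Nat.card B ≤ p ^ 2 := by
  classical
  have hpp : p.Prime := Fact.out
  rcases hn with h | ⟨R₀, R₁, hR₀, hR₁, -, hcomm, hsup⟩
  · exact absurd h hr
  have hR₀e : ∀ a ∈ R₀, a ^ p = 1 := by
    intro a ha
    have h1 : (⟨a, ha⟩ : R₀) ^ Nat.card R₀ = 1 := pow_card_eq_one'
    rw [hR₀] at h1
    have := congrArg Subtype.val h1
    rwa [Subgroup.coe_pow] at this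
  have hR₀c : IsMulCommutative R₀ := by
    have : Fact (Nat.card R₀).Prime := ⟨hR₀ ▸ hpp⟩
    have hcyc : IsCyclic R₀ := isCyclic_of_prime_card rfl
    exact ⟨⟨fun a b => hcyc.commGroup.mul_comm a b⟩⟩
  refine ⟨R₀, ⟨hR₀c, hR₀e⟩, ?_⟩
  intro B hB hR₀B
  obtain ⟨hBc, hBe⟩ := hB
  have hcB : ∀ x ∈ B, ∀ y ∈ B, x * y = y * x := fun x hx y hy =>
    congrArg Subtype.val (hBc.is_comm.comm ⟨x, hx⟩ ⟨y, hy⟩)
  have hdec : ∀ b : B, ∃ a : R, a ∈ R₀ ∧ ∃ y : R, (y ∈ R₁ ∧ y ^ p = 1) ∧ (b : R) = a * y := by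
    intro b
    have h1 : (b : R) ∈ R₀ ⊔ R₁ := by
      rw [hsup, Subgroup.mem_centralizer_iff]
      intro a ha
      exact hcB a (hR₀B ha) b b.2
    obtain ⟨a, ha, y, hy, hay⟩ := mem_sup_of_commute R₀ R₁ hcomm h1
    refine ⟨a, ha, y, ⟨hy, ?_⟩, hay⟩
    apply hBe
    have h2 : y = a⁻¹ * b := by rw [hay]; group
    rw [h2]
    exact B.mul_mem (B.inv_mem (hR₀B ha)) b.2
  choose a ha y hy hb using hdec
  let g : B → R₀ × {y : ↥R₁ // y ^ p = 1} := fun b =>
    (⟨a b, ha b⟩, ⟨⟨y b, (hy b).1⟩, Subtype.ext (by rw [Subgroup.coe_pow]; exact (hy b).2)⟩)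
  have hg : Function.Injective g := by
    intro b₁ b₂ h
    have h1 : a b₁ = a b₂ := congrArg (fun z => ((z.1 : ↥R₀) : R)) h
    have h2 : y b₁ = y b₂ := congrArg (fun z => (((z.2 : {y : ↥R₁ // y ^ p = 1}) : ↥R₁) : R)) h
    apply Subtype.ext
    rw [hb b₁, hb b₂, h1, h2]
  have h3 := Nat.card_le_card_of_injective g hg
  rw [Nat.card_prod, hR₀] at h3
  have hΩ : Nat.card {y : ↥R₁ // y ^ p = 1} ≤ p := by
    haveI : Fintype ↥R₁ := Fintype.ofFinite _
    rw [Nat.card_eq_fintype_card, Fintype.card_subtype]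
    exact IsCyclic.card_pow_eq_one_le hpp.pos
  calc Nat.card B ≤ p * Nat.card {y : ↥R₁ // y ^ p = 1} := h3
    _ ≤ p * p := Nat.mul_le_mul_left p hΩ
    _ = p ^ 2 := (sq p).symm

/-- The action theorem, from a bound on the elementary abelian overgroups of `E₀`. -/
theorem narrow_action_of_bound {R : Type*} [Group R] [Finite R] (p : ℕ) [Fact p.Prime]
    (hp : p ≠ 2) (hR : IsPGroup p R) (hr : ¬ Cfsg.PRankLE p 2 R)
    (E₀ : Subgroup R) (hE₀ : Cfsg.IsElementaryAbelian p E₀)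
    (hb : ∀ B : Subgroup R, Cfsg.IsElementaryAbelian p B → E₀ ≤ B → Nat.card B ≤ p ^ 2)
    {X : Type*} [Group X] (θ : X →* MulAut R) :
    ∃ N : Subgroup X, N.Normal ∧ (∀ x y : X, ⁅x, y⁆ ∈ N) ∧ (∀ x : X, x ^ (p - 1) ∈ N) ∧
      ∀ x ∈ N, ∃ k : ℕ, θ (x ^ p ^ k) = 1 := by
  obtain ⟨E, hE, hE2, hEmax⟩ := exists_max_elementary p hR hr E₀ hE₀ hb
  exact narrow_action p hp hR hr E hE hE2 hEmax θ

/-- The action theorem for narrow `p`-groups of rank at least three. -/
theorem narrow_action_of_isNarrow {R : Type*} [Group R] [Finite R] (p : ℕ) [Fact p.Prime]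
    (hp : p ≠ 2) (hR : IsPGroup p R) (hn : Cfsg.IsNarrow p R) (hr : ¬ Cfsg.PRankLE p 2 R)
    {X : Type*} [Group X] (θ : X →* MulAut R) :
    ∃ N : Subgroup X, N.Normal ∧ (∀ x y : X, ⁅x, y⁆ ∈ N) ∧ (∀ x : X, x ^ (p - 1) ∈ N) ∧
      ∀ x ∈ N, ∃ k : ℕ, θ (x ^ p ^ k) = 1 := by
  obtain ⟨E₀, hE₀, hb⟩ := narrow_bound p hn hr
  exact narrow_action_of_bound p hp hR hr E₀ hE₀ hb θ

end Cfsg.Agent.Lib.Helper54
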