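import Mathlib
import Cfsg.Prelude.Def_Local
import Cfsg.Agent.Lib.Helper54.PStableOdd
import Cfsg.Agent.Lib.Helper55.Cores
import Cfsg.Agent.Lib.Helper63.HallHigman

set_option autoImplicit false

namespace Cfsg.Agent.Lib.Helper54

open scoped commutatorElement

universe u v w

theorem comm_of_isMulCommutative {G : Type*} [Group G] {B : Subgroup G} (hB : IsMulCommutative B)
    {x y : G} (hx : x ∈ B) (hy : y ∈ B) : x * y = y * x :=
  congrArg Subtype.val (hB.is_comm.comm ⟨x, hx⟩ ⟨y, hy⟩)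

/-- An element of an abelian subgroup `B` acts quadratically on every subgroup normalizing
`B`. -/
theorem quad_of_abelian_normalized {G : Type*} [Group G] {P B : Subgroup G}
    (hB : IsMulCommutative B) (hPB : P ≤ Subgroup.normalizer (B : Set G)) {b : G} (hb : b ∈ B) :
    Quad P b := by
  intro x hx
  have h1 : x * b * x⁻¹ ∈ B := (Subgroup.mem_normalizer_iff.mp (hPB hx) b).mp hb
  have h2 : ⁅x, b⁆ ∈ B := by
    rw [commutatorElement_def]
    exact B.mul_mem h1 (B.inv_mem hb)
  exact comm_of_isMulCommutative hB hb h2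

/-- **`p`-stability in groups of odd order**, general homomorphism form. -/
theorem quad_hom_mem_pCore {G : Type u} [Group G] [Finite G] (hodd : Odd (Nat.card G)) (p : ℕ)
    [Fact p.Prime] (hp : p ≠ 2) (P : Subgroup G) (hP : IsPGroup p P)
    {Γ : Type v} [Group Γ] {Q : Type w} [Group Q] [Finite Q] (ι : Γ →* G) (φ : Γ →* Q)
    (hφ : Function.Surjective φ) (hι : ∀ g : Γ, ι g ∈ Subgroup.normalizer (P : Set G))
    (hker : ∀ g : Γ, ι g ∈ Subgroup.centralizer (P : Set G) → φ g = 1)
    (a : Γ) (hqa : Quad P (ι a)) : φ a ∈ Cfsg.pCore p Q := by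
  apply Cfsg.Agent.Lib.Helper64.baerSuzuki_mem_pCore
  intro g
  obtain ⟨g', rfl⟩ := hφ g
  set b : Γ := g' * a * g'⁻¹ with hb
  have hbq : Quad P (ι b) := by
    have : ι b = ι g' * ι a * (ι g')⁻¹ := by rw [hb, map_mul, map_mul, map_inv]
    rw [this]
    exact hqa.conj (hι g')
  have e0 : φ g' * φ a * (φ g')⁻¹ = φ b := by
    rw [hb, map_mul, map_mul, map_inv]
  rw [e0]
  have e1 : Subgroup.closure ({φ a, φ b} : Set Q) =
      (Subgroup.closure ({a, b} : Set Γ)).map φ := by
    rw [MonoidHom.map_closure, Set.image_pair]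
  rw [e1, Cfsg.Agent.Lib.Helper64.isPGroup_iff_mem]
  rintro _ ⟨w, hw, rfl⟩
  have hwG : ι w ∈ Subgroup.closure ({ι a, ι b} : Set G) := by
    have e2 : Subgroup.closure ({ι a, ι b} : Set G) =
        (Subgroup.closure ({a, b} : Set Γ)).map ι := by
      rw [MonoidHom.map_closure, Set.image_pair]
    rw [e2]
    exact Subgroup.mem_map_of_mem _ hw
  have hpp : p.Prime := Fact.out
  obtain ⟨k, n, hn, hkn⟩ := Nat.exists_eq_pow_mul_and_not_dvd (orderOf_pos (ι w)).ne' p
    hpp.ne_one
  have hcop : (orderOf ((ι w) ^ p ^ k)).Coprime p := by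
    have hdvd : orderOf ((ι w) ^ p ^ k) ∣ n := by
      apply orderOf_dvd_of_pow_eq_one
      rw [← pow_mul, ← hkn, pow_orderOf_eq_one]
    exact Nat.Coprime.coprime_dvd_left hdvd ((Nat.Prime.coprime_iff_not_dvd hpp).mpr hn).symm
  have hcent := quad_pair_centralizes p hp _ G hodd P rfl hP (ι a) (ι b) (hι a) (hι b) hqa hbq
    ((ι w) ^ p ^ k) (Subgroup.pow_mem _ hwG _) hcop
  refine ⟨k, ?_⟩
  rw [← map_pow]
  apply hker
  rw [map_pow]
  exact hcent

/-- `p`-stability for a normal `p`-subgroup: a quadratically acting element maps into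
`O_p(G/C_G(P))`. -/
theorem quad_mk_centralizer_mem_pCore {G : Type u} [Group G] [Finite G] (hodd : Odd (Nat.card G))
    (p : ℕ) [Fact p.Prime] (hp : p ≠ 2) (P : Subgroup G) [P.Normal] (hP : IsPGroup p P)
    (a : G) (hqa : Quad P a) :
    QuotientGroup.mk' (Subgroup.centralizer (P : Set G)) a ∈
      Cfsg.pCore p (G ⧸ Subgroup.centralizer (P : Set G)) := by
  refine quad_hom_mem_pCore hodd p hp P hP (MonoidHom.id G)
    (QuotientGroup.mk' (Subgroup.centralizer (P : Set G))) (QuotientGroup.mk'_surjective _)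
    ?_ ?_ a hqa
  · intro g
    rw [Subgroup.normalizer_eq_top]
    exact Subgroup.mem_top _
  · intro g hg
    exact (QuotientGroup.eq_one_iff _).mpr hg

/-- A quadratically acting element on a normal `p`-subgroup containing its centralizer lies in
`O_p(G)` (odd order, `p` odd). -/
theorem quad_mem_pCore_of_centralizer_le {G : Type u} [Group G] [Finite G]
    (hodd : Odd (Nat.card G)) (p : ℕ) [Fact p.Prime] (hp : p ≠ 2) (P : Subgroup G) [P.Normal]
    (hP : IsPGroup p P) (hC : Subgroup.centralizer (P : Set G) ≤ P) (a : G) (hqa : Quad P a) :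
    a ∈ Cfsg.pCore p G := by
  have h1 := quad_mk_centralizer_mem_pCore hodd p hp P hP a hqa
  set C : Subgroup G := Subgroup.centralizer (P : Set G) with hCdef
  set T : Subgroup G := (Cfsg.pCore p (G ⧸ C)).comap (QuotientGroup.mk' C) with hT
  have hTn : T.Normal := Subgroup.Normal.comap inferInstance _
  have hTp : IsPGroup p T := by
    rw [Cfsg.Agent.Lib.Helper64.isPGroup_iff_mem]
    intro t ht
    have ht' : QuotientGroup.mk' C t ∈ Cfsg.pCore p (G ⧸ C) := ht
    obtain ⟨k, hk⟩ := (Cfsg.Agent.Lib.Helper64.isPGroup_iff_mem.mp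
      (Cfsg.Agent.Lib.Helper55.pCore_isPGroup p (G ⧸ C))) _ ht'
    rw [← map_pow] at hk
    have h2 : t ^ p ^ k ∈ P := hC ((QuotientGroup.eq_one_iff _).mp hk)
    obtain ⟨j, hj⟩ := (Cfsg.Agent.Lib.Helper64.isPGroup_iff_mem.mp hP) _ h2
    exact ⟨k + j, by rw [pow_add, pow_mul]; exact hj⟩
  exact Cfsg.Agent.Lib.Helper55.le_pCore hTn hTp h1

/-- Hall–Higman type lemma: in a solvable group with `O_{p'}(G) = 1`, a normal `p`-subgroup `P`
with `O_p(G) ∩ C_G(P) ≤ P` contains its centralizer. -/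
theorem centralizer_le_of_pCore_inf_le {G : Type u} [Group G] [Finite G] [Group.IsSolvable G]
    (p : ℕ) [Fact p.Prime] (hO : Cfsg.pPrimeCore p G = ⊥) (P : Subgroup G) [P.Normal]
    (hPC : Cfsg.pCore p G ⊓ Subgroup.centralizer (P : Set G) ≤ P) :
    Subgroup.centralizer (P : Set G) ≤ P := by
  set C : Subgroup G := Subgroup.centralizer (P : Set G) with hCdef
  haveI hCn : C.Normal := Subgroup.normal_centralizer
  have h1 : Cfsg.pPrimeCore p C = ⊥ := by
    haveI : (Cfsg.pPrimeCore p C).Characteristic :=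
      Cfsg.Agent.Lib.Helper63.pPrimeCore_characteristic' p C
    have hn : ((Cfsg.pPrimeCore p C).map C.subtype).Normal :=
      ConjAct.normal_of_characteristic_of_normal
    have hcard : (Nat.card ((Cfsg.pPrimeCore p C).map C.subtype)).Coprime p := by
      rw [Subgroup.card_map_of_injective C.subtype_injective]
      exact Cfsg.Agent.Lib.Helper55.pPrimeCore_coprime p C
    have h2 : (Cfsg.pPrimeCore p C).map C.subtype ≤ Cfsg.pPrimeCore p G := le_sSup ⟨hn, hcard⟩
    rw [hO, le_bot_iff, Subgroup.map_eq_bot_iff_of_injective _ C.subtype_injective] at h2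
    exact h2
  have h2 : (Cfsg.pCore p C).map C.subtype ≤ Cfsg.pCore p G := by
    haveI : (Cfsg.pCore p C).Characteristic := Cfsg.Agent.Lib.Helper63.pCore_characteristic' p C
    exact Cfsg.Agent.Lib.Helper55.le_pCore ConjAct.normal_of_characteristic_of_normal
      ((Cfsg.Agent.Lib.Helper55.pCore_isPGroup p C).map _)
  have h3 : ∀ x : C, x ∈ Cfsg.pCore p C → (x : G) ∈ P := by
    intro x hx
    exact hPC ⟨h2 ⟨x, hx, rfl⟩, x.2⟩
  have h4 := Cfsg.Agent.Lib.Helper55.centralizer_pCore_le (p := p) (X := C) (by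
    intro N hN hNc
    have : N ≤ Cfsg.pPrimeCore p C := le_sSup ⟨hN, hNc⟩
    rw [h1] at this
    exact le_bot_iff.mp this)
  intro c hc
  have hc' : (⟨c, hc⟩ : C) ∈ Subgroup.centralizer (Cfsg.pCore p C : Set C) := by
    rw [Subgroup.mem_centralizer_iff]
    intro x hx
    have hxP := h3 x hx
    have := Subgroup.mem_centralizer_iff.mp hc (x : G) hxP
    exact Subtype.ext this
  exact h3 _ (h4 hc')

end Cfsg.Agent.Lib.Helper54
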