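import Mathlib
import Cfsg.Prelude.Def_OddOrderLocal
import Cfsg.Agent.Lib.Helper54.PStableOdd2

set_option autoImplicit false

namespace Cfsg.Agent.Lib.Helper54

variable {G : Type*} [Group G]

theorem isMulCommutative_iff {A : Subgroup G} :
    IsMulCommutative A ↔ ∀ x ∈ A, ∀ y ∈ A, x * y = y * x :=
  ⟨fun h _ hx _ hy => comm_of_isMulCommutative h hx hy,
    fun h => ⟨⟨fun a b => Subtype.ext (h a a.2 b b.2)⟩⟩⟩

/-- The Puig step inside an ambient group: the subgroup generated by the abelian subgroups of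
`H` normalized by `X`. -/
def stepIn (H X : Subgroup G) : Subgroup G :=
  sSup {A : Subgroup G | A ≤ H ∧ IsMulCommutative A ∧ X ≤ Subgroup.normalizer (A : Set G)}

/-- The Puig series of the subgroup `H`, inside the ambient group. -/
def seqIn (H : Subgroup G) : ℕ → Subgroup G
  | 0 => ⊥
  | n + 1 => stepIn H (seqIn H n)

theorem seqIn_succ (H : Subgroup G) (n : ℕ) : seqIn H (n + 1) = stepIn H (seqIn H n) := rfl

theorem stepIn_le (H X : Subgroup G) : stepIn H X ≤ H := sSup_le (fun _ hA => hA.1)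

theorem stepIn_anti {H X Y : Subgroup G} (h : X ≤ Y) : stepIn H Y ≤ stepIn H X :=
  sSup_le_sSup (fun _ hA => ⟨hA.1, hA.2.1, h.trans hA.2.2⟩)

theorem le_stepIn {H X A : Subgroup G} (hAH : A ≤ H) (hA : IsMulCommutative A)
    (hXA : X ≤ Subgroup.normalizer (A : Set G)) : A ≤ stepIn H X :=
  le_sSup ⟨hAH, hA, hXA⟩

theorem map_puigStep [Finite G] (H : Subgroup G) (X' : Subgroup H) :
    (Cfsg.puigStep X').map H.subtype = stepIn H (X'.map H.subtype) := by
  apply le_antisymm
  · rw [Subgroup.map_le_iff_le_comap]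
    apply sSup_le
    rintro A' ⟨hA'c, hX'A'⟩ a' ha'
    have hmem : A'.map H.subtype ∈ {A : Subgroup G | A ≤ H ∧ IsMulCommutative A ∧
        X'.map H.subtype ≤ Subgroup.normalizer (A : Set G)} := by
      refine ⟨Subgroup.map_subtype_le A', ?_, ?_⟩
      · rw [isMulCommutative_iff]
        rintro _ ⟨x, hx, rfl⟩ _ ⟨y, hy, rfl⟩
        have := comm_of_isMulCommutative hA'c hx hy
        exact congrArg Subtype.val this
      · rintro _ ⟨x', hx', rfl⟩
        apply mem_normalizer_of_conj_mem
        rintro _ ⟨a, ha, rfl⟩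
        exact ⟨x' * a * x'⁻¹, (Subgroup.mem_normalizer_iff.mp (hX'A' hx') a).mp ha, rfl⟩
    exact le_sSup hmem ⟨a', ha', rfl⟩
  · apply sSup_le
    rintro A ⟨hAH, hAc, hXA⟩
    rw [← Subgroup.map_subgroupOf_eq_of_le hAH]
    apply Subgroup.map_mono
    apply le_sSup
    refine ⟨?_, ?_⟩
    · rw [isMulCommutative_iff]
      intro x hx y hy
      exact Subtype.ext (comm_of_isMulCommutative hAc (Subgroup.mem_subgroupOf.mp hx)
        (Subgroup.mem_subgroupOf.mp hy))
    · intro x' hx'
      apply mem_normalizer_of_conj_mem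
      intro a' ha'
      rw [Subgroup.mem_subgroupOf] at ha' ⊢
      have hx : (x' : G) ∈ Subgroup.normalizer (A : Set G) := hXA ⟨x', hx', rfl⟩
      exact (Subgroup.mem_normalizer_iff.mp hx _).mp ha'

theorem map_puigSeq [Finite G] (H : Subgroup G) (n : ℕ) :
    (Cfsg.puigSeq H n).map H.subtype = seqIn H n := by
  induction n with
  | zero => exact Subgroup.map_bot _
  | succ n ih =>
    show (Cfsg.puigStep (Cfsg.puigSeq H n)).map H.subtype = stepIn H (seqIn H n)
    rw [map_puigStep, ih]

theorem map_puigLower [Finite G] (H : Subgroup G) :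
    (Cfsg.puigLower H).map H.subtype = ⨆ n : ℕ, seqIn H (2 * n) := by
  unfold Cfsg.puigLower
  rw [Subgroup.map_iSup]
  exact iSup_congr (fun n => map_puigSeq H (2 * n))

theorem map_puigSubgroup [Finite G] (H : Subgroup G) :
    (Cfsg.puigSubgroup H).map H.subtype = ⨅ n : ℕ, seqIn H (2 * n + 1) := by
  unfold Cfsg.puigSubgroup
  rw [Subgroup.map_iInf _ H.subtype_injective]
  exact iInf_congr (fun n => map_puigSeq H (2 * n + 1))

theorem stepIn_normal [Finite G] (H X : Subgroup G) [hH : H.Normal] [hX : X.Normal] :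
    (stepIn H X).Normal := by
  have key : ∀ g : G, (stepIn H X).map (MulAut.conj g).toMonoidHom ≤ stepIn H X := by
    intro g
    rw [Subgroup.map_le_iff_le_comap]
    apply sSup_le
    rintro A ⟨hAH, hAc, hXA⟩ a ha
    have hmem : A.map (MulAut.conj g).toMonoidHom ∈ {A : Subgroup G | A ≤ H ∧
        IsMulCommutative A ∧ X ≤ Subgroup.normalizer (A : Set G)} := by
      refine ⟨?_, ?_, ?_⟩
      · rintro _ ⟨x, hx, rfl⟩
        exact hH.conj_mem x (hAH hx) g
      · rw [isMulCommutative_iff]
        rintro _ ⟨x, hx, rfl⟩ _ ⟨y, hy, rfl⟩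
        simp only [MulEquiv.coe_toMonoidHom, MulAut.conj_apply]
        have := comm_of_isMulCommutative hAc hx hy
        calc g * x * g⁻¹ * (g * y * g⁻¹) = g * (x * y) * g⁻¹ := by group
          _ = g * (y * x) * g⁻¹ := by rw [this]
          _ = g * y * g⁻¹ * (g * x * g⁻¹) := by group
      · intro x hx
        apply mem_normalizer_of_conj_mem
        rintro _ ⟨b, hb, rfl⟩
        have hx' : g⁻¹ * x * g ∈ X := by
          have := hX.conj_mem x hx g⁻¹
          rwa [inv_inv] at this
        have h1 := (Subgroup.mem_normalizer_iff.mp (hXA hx') b).mp hb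
        refine ⟨g⁻¹ * x * g * b * (g⁻¹ * x * g)⁻¹, h1, ?_⟩
        simp only [MulEquiv.coe_toMonoidHom, MulAut.conj_apply]
        group
    exact le_sSup hmem ⟨a, ha, rfl⟩
  refine ⟨fun n hn g => ?_⟩
  exact key g ⟨n, hn, rfl⟩

theorem seqIn_normal [Finite G] (H : Subgroup G) [H.Normal] (n : ℕ) : (seqIn H n).Normal := by
  induction n with
  | zero => exact Subgroup.normal_bot
  | succ n ih =>
    haveI := ih
    exact stepIn_normal H (seqIn H n)

theorem seqIn_le (H : Subgroup G) (n : ℕ) : seqIn H n ≤ H := by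
  cases n with
  | zero => exact bot_le
  | succ n => exact stepIn_le H _

end Cfsg.Agent.Lib.Helper54
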