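import Mathlib
import Cfsg.Prelude.Def_OddOrderLocal
import Cfsg.Agent.Lib.Helper54.Puig
import Cfsg.Agent.S1467

/-!
Ambient versions of the Puig subgroups `L(H)`, `L_*(H)` and of `Z(L(H))` for a subgroup `H` of a
finite group, their invariance under the normalizer of `H`, the fact that `L(H) = L(S)` whenever
`L(S) ≤ H ≤ S`, and transport along a homomorphism injective on `H`.
-/

set_option autoImplicit false

namespace Cfsg.Agent.Lib.Helper54

variable {G : Type*} [Group G]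

/-- Ambient Puig subgroup `L(H)`. -/
def LIn (H : Subgroup G) : Subgroup G := ⨅ n : ℕ, seqIn H (2 * n + 1)

/-- Ambient lower Puig subgroup `L_*(H)`. -/
def LsIn (H : Subgroup G) : Subgroup G := ⨆ n : ℕ, seqIn H (2 * n)

theorem LIn_eq_map [Finite G] (H : Subgroup G) :
    LIn H = (Cfsg.puigSubgroup H).map H.subtype := (map_puigSubgroup H).symm

theorem LsIn_eq_map [Finite G] (H : Subgroup G) :
    LsIn H = (Cfsg.puigLower H).map H.subtype := (map_puigLower H).symm

theorem stepIn_LsIn [Finite G] (H : Subgroup G) : stepIn H (LsIn H) = LIn H := by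
  rw [LsIn_eq_map, LIn_eq_map, ← map_puigStep]
  exact congrArg _ (Cfsg.Agent.S1467.result (G := H)).2.2.2.2.2.1

theorem stepIn_LIn [Finite G] (H : Subgroup G) : stepIn H (LIn H) = LsIn H := by
  rw [LsIn_eq_map, LIn_eq_map, ← map_puigStep]
  exact congrArg _ (Cfsg.Agent.S1467.result (G := H)).2.2.2.2.2.2

theorem LsIn_le_LIn [Finite G] (H : Subgroup G) : LsIn H ≤ LIn H := by
  rw [LsIn_eq_map, LIn_eq_map]
  exact Subgroup.map_mono (Cfsg.Agent.S1467.result (G := H)).2.2.2.2.1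

theorem LIn_le (H : Subgroup G) : LIn H ≤ H :=
  (iInf_le (fun n : ℕ => seqIn H (2 * n + 1)) 0).trans (seqIn_le H _)

theorem seqIn_even_le_LsIn (H : Subgroup G) (n : ℕ) : seqIn H (2 * n) ≤ LsIn H :=
  le_iSup (fun n : ℕ => seqIn H (2 * n)) n

theorem LIn_le_seqIn_odd (H : Subgroup G) (n : ℕ) : LIn H ≤ seqIn H (2 * n + 1) :=
  iInf_le (fun n : ℕ => seqIn H (2 * n + 1)) n

theorem exists_stable [Finite G] (H : Subgroup G) :
    ∃ k : ℕ, ∀ n : ℕ, k ≤ n → seqIn H (2 * n) = LsIn H ∧ seqIn H (2 * n + 1) = LIn H := by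
  obtain ⟨k, hk⟩ := (Cfsg.Agent.S1467.result (G := H)).2.2.2.1
  refine ⟨k, fun n hn => ?_⟩
  rw [LsIn_eq_map, LIn_eq_map, ← map_puigSeq, ← map_puigSeq, (hk n hn).1, (hk n hn).2]
  exact ⟨rfl, rfl⟩

theorem stepIn_mono_left {H H' X : Subgroup G} (h : H ≤ H') : stepIn H X ≤ stepIn H' X :=
  sSup_le_sSup (fun _ hA => ⟨hA.1.trans h, hA.2.1, hA.2.2⟩)

/-- If `L(S) ≤ H ≤ S` then `L(H) = L(S)`. -/
theorem LIn_eq_of_le [Finite G] {H S : Subgroup G} (hHS : H ≤ S) (hL : LIn S ≤ H) :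
    LIn H = LIn S := by
  have hLs : LsIn S ≤ H := (LsIn_le_LIn S).trans hL
  have hP : ∀ n : ℕ, seqIn S (2 * n) ≤ seqIn H (2 * n) ∧
      seqIn H (2 * n + 1) ≤ seqIn S (2 * n + 1) := by
    intro n
    induction n with
    | zero =>
      refine ⟨bot_le, ?_⟩
      show stepIn H _ ≤ stepIn S _
      exact stepIn_mono_left hHS
    | succ n ih =>
      have h1 : seqIn S (2 * (n + 1)) ≤ seqIn H (2 * (n + 1)) := by
        show stepIn S (seqIn S (2 * n + 1)) ≤ stepIn H (seqIn H (2 * n + 1))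
        apply sSup_le
        rintro A ⟨hAS, hAc, hXA⟩
        have hA1 : A ≤ seqIn S (2 * (n + 1)) := le_stepIn hAS hAc hXA
        exact le_stepIn ((hA1.trans (seqIn_even_le_LsIn S (n + 1))).trans hLs) hAc
          (ih.2.trans hXA)
      refine ⟨h1, ?_⟩
      show stepIn H (seqIn H (2 * (n + 1))) ≤ stepIn S (seqIn S (2 * (n + 1)))
      exact (stepIn_mono_left hHS).trans (stepIn_anti h1)
  have hstep : ∀ n : ℕ, seqIn H (2 * n) ≤ LsIn S → LIn S ≤ seqIn H (2 * n + 1) := by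
    intro n hn
    show LIn S ≤ stepIn H (seqIn H (2 * n))
    have h0 : stepIn S (LsIn S) ≤ stepIn H (seqIn H (2 * n)) := by
      apply sSup_le
      rintro A ⟨hAS, hAc, hXA⟩
      have hA1 : A ≤ LIn S := by
        rw [← stepIn_LsIn S]
        exact le_stepIn hAS hAc hXA
      exact le_stepIn (hA1.trans hL) hAc (hn.trans hXA)
    rwa [stepIn_LsIn S] at h0
  have hQ : ∀ n : ℕ, seqIn H (2 * n) ≤ LsIn S ∧ LIn S ≤ seqIn H (2 * n + 1) := by
    intro n
    induction n with
    | zero => exact ⟨bot_le, hstep 0 bot_le⟩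
    | succ n ih =>
      have h1 : seqIn H (2 * (n + 1)) ≤ LsIn S := by
        have h0 : stepIn H (seqIn H (2 * n + 1)) ≤ stepIn S (LIn S) :=
          (stepIn_mono_left hHS).trans (stepIn_anti ih.2)
        rw [stepIn_LIn S] at h0
        exact h0
      exact ⟨h1, hstep (n + 1) h1⟩
  apply le_antisymm
  · exact iInf_mono (fun n => (hP n).2)
  · exact le_iInf (fun n => (hQ n).2)

theorem mem_normalizer_stepIn [Finite G] {H X : Subgroup G} {g : G}
    (hH : g ∈ Subgroup.normalizer (H : Set G)) (hX : g ∈ Subgroup.normalizer (X : Set G)) :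
    g ∈ Subgroup.normalizer (stepIn H X : Set G) := by
  have key : (stepIn H X).map (MulAut.conj g).toMonoidHom ≤ stepIn H X := by
    rw [Subgroup.map_le_iff_le_comap]
    apply sSup_le
    rintro A ⟨hAH, hAc, hXA⟩ a ha
    have hmem : A.map (MulAut.conj g).toMonoidHom ∈ {A : Subgroup G | A ≤ H ∧
        IsMulCommutative A ∧ X ≤ Subgroup.normalizer (A : Set G)} := by
      refine ⟨?_, ?_, ?_⟩
      · rintro _ ⟨x, hx, rfl⟩
        exact (Subgroup.mem_normalizer_iff.mp hH x).mp (hAH hx)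
      · rw [isMulCommutative_iff]
        rintro _ ⟨x, hx, rfl⟩ _ ⟨y, hy, rfl⟩
        simp only [MulEquiv.coe_toMonoidHom, MulAut.conj_apply]
        have := comm_of_isMulCommutative hAc hx hy
        calc g * x * g⁻¹ * (g * y * g⁻¹) = g * (x * y) * g⁻¹ := by group
          _ = g * (y * x) * g⁻¹ := by rw [this]
          _ = g * y * g⁻¹ * (g * x * g⁻¹) := by group
      · intro x hx
        apply mem_normalizer_of_conj_mem
        rintro _ ⟨b, hb, rfl⟩
        have hx' : g⁻¹ * x * g ∈ X := by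
          have := (Subgroup.mem_normalizer_iff.mp (Subgroup.inv_mem _ hX) x).mp hx
          rwa [inv_inv] at this
        have h1 := (Subgroup.mem_normalizer_iff.mp (hXA hx') b).mp hb
        refine ⟨g⁻¹ * x * g * b * (g⁻¹ * x * g)⁻¹, h1, ?_⟩
        simp only [MulEquiv.coe_toMonoidHom, MulAut.conj_apply]
        group
    exact le_sSup hmem ⟨a, ha, rfl⟩
  apply mem_normalizer_of_conj_mem
  intro x hx
  exact key ⟨x, hx, rfl⟩

theorem mem_normalizer_seqIn [Finite G] {H : Subgroup G} {g : G}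
    (hH : g ∈ Subgroup.normalizer (H : Set G)) (n : ℕ) :
    g ∈ Subgroup.normalizer (seqIn H n : Set G) := by
  induction n with
  | zero =>
    show g ∈ Subgroup.normalizer ((⊥ : Subgroup G) : Set G)
    rw [Subgroup.mem_normalizer_iff]
    intro h
    rw [Subgroup.mem_bot, Subgroup.mem_bot, conj_eq_one_iff]
  | succ n ih => exact mem_normalizer_stepIn hH ih

theorem mem_normalizer_LIn [Finite G] {H : Subgroup G} {g : G}
    (hH : g ∈ Subgroup.normalizer (H : Set G)) :
    g ∈ Subgroup.normalizer (LIn H : Set G) := by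
  obtain ⟨k, hk⟩ := exists_stable H
  rw [← (hk k le_rfl).2]
  exact mem_normalizer_seqIn hH _

theorem mem_normalizer_inf_centralizer [Finite G] {L : Subgroup G} {g : G}
    (hg : g ∈ Subgroup.normalizer (L : Set G)) :
    g ∈ Subgroup.normalizer ((L ⊓ Subgroup.centralizer (L : Set G) : Subgroup G) : Set G) := by
  apply mem_normalizer_of_conj_mem
  intro z hz
  obtain ⟨hzL, hzC⟩ := Subgroup.mem_inf.mp hz
  refine Subgroup.mem_inf.mpr ⟨(Subgroup.mem_normalizer_iff.mp hg z).mp hzL, ?_⟩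
  rw [Subgroup.mem_centralizer_iff]
  intro y hy
  have hy' : g⁻¹ * y * g ∈ L := by
    have := (Subgroup.mem_normalizer_iff.mp (Subgroup.inv_mem _ hg) y).mp hy
    rwa [inv_inv] at this
  have h1 := Subgroup.mem_centralizer_iff.mp hzC _ hy'
  calc y * (g * z * g⁻¹) = g * (g⁻¹ * y * g * z) * g⁻¹ := by group
    _ = g * (z * (g⁻¹ * y * g)) * g⁻¹ := by rw [h1]
    _ = g * z * g⁻¹ * y := by group

/-- Ambient centre of the Puig subgroup `Z(L(H))`. -/
def ZIn (H : Subgroup G) : Subgroup G := LIn H ⊓ Subgroup.centralizer (LIn H : Set G)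

theorem ZIn_le (H : Subgroup G) : ZIn H ≤ H := inf_le_left.trans (LIn_le H)

theorem mem_normalizer_ZIn [Finite G] {H : Subgroup G} {g : G}
    (hH : g ∈ Subgroup.normalizer (H : Set G)) :
    g ∈ Subgroup.normalizer (ZIn H : Set G) :=
  mem_normalizer_inf_centralizer (mem_normalizer_LIn hH)

theorem center_map_map (H : Subgroup G) (K' : Subgroup H) :
    ((Subgroup.center K').map K'.subtype).map H.subtype =
      K'.map H.subtype ⊓ Subgroup.centralizer ((K'.map H.subtype : Subgroup G) : Set G) := by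
  ext z
  constructor
  · rintro ⟨_, ⟨⟨w, hw⟩, hwc, rfl⟩, rfl⟩
    refine Subgroup.mem_inf.mpr ⟨⟨w, hw, rfl⟩, ?_⟩
    rw [Subgroup.mem_centralizer_iff]
    rintro _ ⟨y, hy, rfl⟩
    have := Subgroup.mem_center_iff.mp hwc ⟨y, hy⟩
    exact congrArg (fun t : K' => ((t : H) : G)) this
  · intro hz
    obtain ⟨⟨w, hw, rfl⟩, hzC⟩ := Subgroup.mem_inf.mp hz
    refine ⟨w, ⟨⟨w, hw⟩, ?_, rfl⟩, rfl⟩
    show (⟨w, hw⟩ : K') ∈ Subgroup.center K'
    rw [Subgroup.mem_center_iff]
    rintro ⟨y, hy⟩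
    apply Subtype.ext
    apply Subtype.ext
    exact Subgroup.mem_centralizer_iff.mp hzC _ ⟨y, hy, rfl⟩

theorem ZIn_eq_map [Finite G] (H : Subgroup G) :
    ((Subgroup.center ↥(Cfsg.puigSubgroup ↥H)).map (Cfsg.puigSubgroup ↥H).subtype).map H.subtype =
      ZIn H := by
  rw [center_map_map, ← LIn_eq_map]
  rfl

section Transport

variable {G' : Type*} [Group G']

theorem map_stepIn [Finite G] [Finite G'] (f : G →* G') {H X : Subgroup G}
    (hinj : ∀ x ∈ H, ∀ y ∈ H, f x = f y → x = y) (hXH : X ≤ H) :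
    (stepIn H X).map f = stepIn (H.map f) (X.map f) := by
  apply le_antisymm
  · rw [Subgroup.map_le_iff_le_comap]
    apply sSup_le
    rintro A ⟨hAH, hAc, hXA⟩ a ha
    have hmem : A.map f ∈ {B : Subgroup G' | B ≤ H.map f ∧ IsMulCommutative B ∧
        X.map f ≤ Subgroup.normalizer (B : Set G')} := by
      refine ⟨Subgroup.map_mono hAH, ?_, ?_⟩
      · rw [isMulCommutative_iff]
        rintro _ ⟨x, hx, rfl⟩ _ ⟨y, hy, rfl⟩
        rw [← map_mul, ← map_mul, comm_of_isMulCommutative hAc hx hy]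
      · rintro _ ⟨x, hx, rfl⟩
        apply mem_normalizer_of_conj_mem
        rintro _ ⟨b, hb, rfl⟩
        exact ⟨x * b * x⁻¹, (Subgroup.mem_normalizer_iff.mp (hXA hx) b).mp hb, by simp⟩
    exact le_sSup hmem ⟨a, ha, rfl⟩
  · apply sSup_le
    rintro B ⟨hBH, hBc, hXB⟩
    have hBeq : (B.comap f ⊓ H).map f = B := by
      apply le_antisymm
      · rintro _ ⟨x, hx, rfl⟩
        exact hx.1
      · intro y hy
        obtain ⟨x, hx, rfl⟩ := hBH hy
        exact ⟨x, ⟨hy, hx⟩, rfl⟩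
    rw [← hBeq]
    apply Subgroup.map_mono
    apply le_stepIn inf_le_right
    · rw [isMulCommutative_iff]
      intro x hx y hy
      apply hinj _ (H.mul_mem hx.2 hy.2) _ (H.mul_mem hy.2 hx.2)
      rw [map_mul, map_mul]
      exact comm_of_isMulCommutative hBc hx.1 hy.1
    · intro x hx
      apply mem_normalizer_of_conj_mem
      rintro a ⟨haB, haH⟩
      refine ⟨?_, H.mul_mem (H.mul_mem (hXH hx) haH) (H.inv_mem (hXH hx))⟩
      show f (x * a * x⁻¹) ∈ B
      rw [map_mul, map_mul, map_inv]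
      exact (Subgroup.mem_normalizer_iff.mp (hXB ⟨x, hx, rfl⟩) _).mp haB

theorem map_seqIn [Finite G] [Finite G'] (f : G →* G') {H : Subgroup G}
    (hinj : ∀ x ∈ H, ∀ y ∈ H, f x = f y → x = y) (n : ℕ) :
    (seqIn H n).map f = seqIn (H.map f) n := by
  induction n with
  | zero => exact Subgroup.map_bot f
  | succ n ih =>
    show (stepIn H (seqIn H n)).map f = stepIn (H.map f) (seqIn (H.map f) n)
    rw [map_stepIn f hinj (seqIn_le H n), ih]

theorem map_LIn [Finite G] [Finite G'] (f : G →* G') {H : Subgroup G}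
    (hinj : ∀ x ∈ H, ∀ y ∈ H, f x = f y → x = y) :
    (LIn H).map f = LIn (H.map f) := by
  obtain ⟨k, hk⟩ := exists_stable H
  obtain ⟨k', hk'⟩ := exists_stable (H.map f)
  rw [← (hk (max k k') (le_max_left _ _)).2, ← (hk' (max k k') (le_max_right _ _)).2]
  exact map_seqIn f hinj _

theorem map_ZIn [Finite G] [Finite G'] (f : G →* G') {H : Subgroup G}
    (hinj : ∀ x ∈ H, ∀ y ∈ H, f x = f y → x = y) :
    (ZIn H).map f = ZIn (H.map f) := by
  unfold ZIn
  rw [← map_LIn f hinj]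
  ext z
  constructor
  · rintro ⟨w, hw, rfl⟩
    obtain ⟨hwL, hwC⟩ := Subgroup.mem_inf.mp hw
    refine Subgroup.mem_inf.mpr ⟨⟨w, hwL, rfl⟩, ?_⟩
    rw [Subgroup.mem_centralizer_iff]
    rintro _ ⟨y, hy, rfl⟩
    rw [← map_mul, ← map_mul, Subgroup.mem_centralizer_iff.mp hwC y hy]
  · intro hz
    obtain ⟨⟨w, hwL, rfl⟩, hC⟩ := Subgroup.mem_inf.mp hz
    refine ⟨w, Subgroup.mem_inf.mpr ⟨hwL, ?_⟩, rfl⟩
    rw [Subgroup.mem_centralizer_iff]
    intro y hy
    have hyH := LIn_le H hy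
    have hwH := LIn_le H hwL
    apply hinj _ (H.mul_mem hyH hwH) _ (H.mul_mem hwH hyH)
    rw [map_mul, map_mul]
    exact Subgroup.mem_centralizer_iff.mp hC _ ⟨y, hy, rfl⟩

end Transport

end Cfsg.Agent.Lib.Helper54
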